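import Mathlib
import Cfsg.Agent.SG.Ex

/-! A sharper form of the valency estimate. -/

set_option autoImplicit false

namespace Cfsg.Agent.S7.E2s

open Cfsg.Agent.SG.Ex

variable {G Ω : Type*} [Group G] [MulAction G Ω] {A : Subgroup G} {w j f : ℕ}
  {Γ : Ω → Ω → Prop}

theorem e2s [Finite G] [Finite Ω] (h : Hy A Ω w j f)
    (hΓ : ∀ (g : G) a b, Γ a b → Γ (g • a) (g • b)) (ω₀ : Ω)
    (hK : ∀ b : Ω, ∃ k ∈ Subgroup.normalClosure (A : Set G), k • ω₀ = b) {x : G} (hx : x ∈ A)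
    (x1 : x ≠ 1) : 2 * ((Nat.card {b // Γ ω₀ b} : ℤ) - cnt Γ x) ^ 2 ≤
      3 * j ^ 2 * (w + 1) * Nat.card {b // Γ ω₀ b} := by
  classical
  have := Fintype.ofFinite G
  have := Fintype.ofFinite Ω
  have hS := sq_bound h ω₀ hK hx x1
  set k := Nat.card {b // Γ ω₀ b} with hk
  set n : ℝ := (Nat.card G : ℝ) with hn
  set a : ℝ := (Nat.card A : ℝ) with ha
  let M : Ω → Ω → ℝ := fun ω ω' => ∑ g : G, if (g * x * g⁻¹) • ω = ω' then 1 else 0
  have hc : (Fintype.card Ω : ℝ) = j * a := by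
    rw [← Nat.card_eq_fintype_card, h.card]
    push_cast
    rfl
  have hc0 : (0 : ℝ) < j * a := by
    rw [← hc]
    exact_mod_cast Fintype.card_pos_iff.2 ⟨ω₀⟩
  have hn0 : 0 < n := by
    rw [hn]
    exact_mod_cast Nat.card_pos
  have h1 : ∀ ω, ∑ ω', M ω ω' = n := fun ω => by
    simp only [M]
    rw [Finset.sum_comm]
    simp [hn]
  have h2 : ∑ ω, ∑ ω', M ω ω' ^ 2 = ∑ z : G, ∑ g : G,
      (Nat.card (MulAction.fixedBy Ω ((z * x * z⁻¹)⁻¹ * (g * x * g⁻¹))) : ℝ) := by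
    have : ∀ ω, ∑ ω', M ω ω' ^ 2 = ∑ z : G, ∑ g : G,
        if ω ∈ MulAction.fixedBy Ω ((z * x * z⁻¹)⁻¹ * (g * x * g⁻¹)) then (1 : ℝ) else 0 := by
      intro ω
      simp only [M, sq, Finset.sum_mul_sum]
      rw [Finset.sum_comm]
      refine Finset.sum_congr rfl fun z _ => ?_
      rw [Finset.sum_comm]
      refine Finset.sum_congr rfl fun g _ => ?_
      simp only [ite_mul, one_mul, zero_mul, Finset.sum_ite_eq, Finset.mem_univ, if_true,
        MulAction.mem_fixedBy, mul_smul (z * x * z⁻¹)⁻¹, inv_smul_eq_iff]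
    simp only [this]
    rw [Finset.sum_comm]
    refine Finset.sum_congr rfl fun z _ => ?_
    rw [Finset.sum_comm]
    refine Finset.sum_congr rfl fun g _ => ?_
    rw [Finset.sum_boole, Nat.card_eq_fintype_card, Fintype.card_subtype]
  have h3 : ∑ ω, ∑ ω', (if Γ ω ω' then (1 : ℝ) else 0) * M ω ω' = n * cnt Γ x := by
    have : ∀ g : G, (cnt Γ x : ℝ) = ∑ ω, ∑ ω', (if Γ ω ω' then (1 : ℝ) else 0) *
        if (g * x * g⁻¹) • ω = ω' then 1 else 0 := fun g => by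
      rw [← cnt_conj hΓ x g, cnt_eq]
      simp only [ite_mul, one_mul, zero_mul]
    have e : n * cnt Γ x = ∑ _g : G, (cnt Γ x : ℝ) := by simp [hn]
    rw [e, Finset.sum_congr rfl fun g _ => this g]
    simp only [M, Finset.mul_sum]
    symm
    rw [Finset.sum_comm]
    exact Finset.sum_congr rfl fun ω _ => Finset.sum_comm
  have h4 : ∀ ω, ∑ ω', (if Γ ω ω' then (1 : ℝ) else 0) = k := fun ω => by
    obtain ⟨g, -, rfl⟩ := hK ω
    rw [Finset.sum_boole, ← Fintype.card_subtype, ← Nat.card_eq_fintype_card, hk]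
    congr 1
    refine (Nat.card_congr ((MulAction.toPerm g).subtypeEquiv fun b => ?_)).symm
    exact ⟨hΓ g _ _, fun e => by simpa using hΓ g⁻¹ _ _ e⟩
  have h5 := Finset.sum_mul_sq_le_sq_mul_sq (Finset.univ : Finset (Ω × Ω))
    (fun p => if Γ p.1 p.2 then (1 : ℝ) else 0) (fun p => M p.1 p.2 - n / (j * a))
  have h6 : ∀ p : Prop, ∀ [Decidable p], (if p then (1 : ℝ) else 0) ^ 2 = if p then 1 else 0 :=
    fun p _ => by split_ifs <;> simp
  simp only [h6, Fintype.sum_prod_type, mul_sub, sub_sq, Finset.sum_sub_distrib,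
    Finset.sum_add_distrib, ← Finset.sum_mul, ← Finset.mul_sum, h1, h2, h3, h4, Finset.sum_const,
    Finset.card_univ, nsmul_eq_mul, hc] at h5
  have ha4 : 6 ≤ a := by
    have h7 := h.big
    have h8 : 0 < w := by
      rw [← h.hw]
      exact Nat.pos_of_ne_zero Subgroup.FiniteIndex.index_ne_zero
    have : 6 ≤ Nat.card A := by nlinarith
    rw [ha]
    exact_mod_cast this
  have h7 : j * a * (j * a / (a - 1) ^ 2) ≤ 3 / 2 * j ^ 2 := by
    rw [← mul_div_assoc, div_le_iff₀ (by nlinarith)]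
    have : a * a ≤ 3 / 2 * (a - 1) ^ 2 := by nlinarith
    nlinarith [sq_nonneg (j : ℝ)]
  have h8 : ((k : ℝ) - cnt Γ x) ^ 2 ≤ 3 / 2 * j ^ 2 * (w + 1) * k := by
    refine le_of_mul_le_mul_left ?_ (pow_pos hn0 2)
    set S := ∑ z : G, ∑ g : G,
      (Nat.card (MulAction.fixedBy Ω ((z * x * z⁻¹)⁻¹ * (g * x * g⁻¹))) : ℝ)
    have h9 : (n * cnt Γ x - n * k) ^ 2 ≤ j * a * k * (S - n ^ 2) := by
      rw [Fintype.card_prod, Nat.cast_mul, hc] at h5
      obtain ⟨u, hu⟩ : ∃ u, n = j * a * u := ⟨n / (j * a), (mul_div_cancel₀ n hc0.ne').symm⟩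
      have e : n / (j * a) = u := by rw [hu, mul_div_cancel_left₀ _ hc0.ne']
      rw [e] at h5
      rw [hu] at h5 ⊢
      refine le_of_eq_of_le (by ring) (le_of_le_of_eq h5 (by ring))
    have h10 : j * a * k * (S - n ^ 2) ≤
        j * a * k * (n ^ 2 * (j * a / (a - 1) ^ 2 * (w + 1))) := by
      gcongr
      linarith
    have h11 : j * a * (j * a / (a - 1) ^ 2) * (k * n ^ 2 * (w + 1)) ≤
        3 / 2 * j ^ 2 * (k * n ^ 2 * (w + 1)) := by gcongr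
    nlinarith
  have h9 : 2 * ((k : ℝ) - cnt Γ x) ^ 2 ≤ 3 * j ^ 2 * (w + 1) * k := by linarith
  exact_mod_cast h9

theorem e2t [Finite G] [Finite Ω] (h : Hy A Ω w j f)
    (hΓ : ∀ (g : G) a b, Γ a b → Γ (g • a) (g • b))
    (hN : ∀ z ∈ Subgroup.normalizer (A : Set G), ∀ ω : Ω, ∃ a ∈ A, z • ω = a • ω) (ω₀ : Ω)
    (ht : ∀ b : Ω, ∃ g : G, g • ω₀ = b) {x : G} (hx : x ∈ A)
    (x1 : x ≠ 1) : 2 * ((Nat.card {b // Γ ω₀ b} : ℤ) - cnt Γ x) ^ 2 ≤
      3 * j ^ 2 * (w + 1) * Nat.card {b // Γ ω₀ b} := by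
  refine e2s h hΓ ω₀ (fun b => ?_) hx x1
  obtain ⟨g, rfl⟩ := ht b
  have hg : g ∈ Subgroup.normalClosure (A : Set G) ⊔ Subgroup.normalizer (A : Set G) := by
    rw [sup_comm, frat h.ca]
    trivial
  rw [← SetLike.mem_coe, Subgroup.normal_mul] at hg
  obtain ⟨k, hk, z, hz, rfl⟩ := hg
  obtain ⟨a, ha, e⟩ := hN z hz ω₀
  refine ⟨k * a, mul_mem hk (Subgroup.subset_normalClosure ha), ?_⟩
  change (k * a) • ω₀ = (k * z) • ω₀
  rw [mul_smul, mul_smul, e]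

end Cfsg.Agent.S7.E2s
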