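import Mathlib
import Cfsg.Agent.SG.Two

/-! Lines and their affine parametrisation. -/

set_option autoImplicit false

namespace Cfsg.Agent.S7.TwoG

open Module Cfsg.Agent.SG
open scoped LinearAlgebra.Projectivization

theorem card_erase {α : Type*} [Finite α] (S : α → Prop) {x : α} (hx : S x) :
    Nat.card {v // v ≠ x ∧ S v} + 1 = Nat.card {v // S v} := by
  have h := Set.ncard_sdiff_singleton_add_one (s := {v | S v}) hx
  have e : ({v | S v} \ {x} : Set α) = {v | v ≠ x ∧ S v} := by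
    ext v; simp [and_comm]
  rw [e] at h
  exact h

theorem all_of {α : Type*} [Finite α] (S : α → Prop) {x : α} (hx : ¬ S x)
    (h : Nat.card α ≤ Nat.card {v // S v} + 1) : ∀ v, v ≠ x → S v := by
  have h5 : ({y | S y} : Set α) = {x}ᶜ := by
    refine Set.eq_of_subset_of_ncard_le (fun y hy e => hx ?_) ?_
    · rw [Set.mem_singleton_iff.mp e] at hy; exact hy
    · have h6 := Set.ncard_add_ncard_compl ({x} : Set α)
      rw [Set.ncard_singleton] at h6
      change _ ≤ Nat.card {v // S v}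
      omega
  intro y hy
  have : y ∈ ({x}ᶜ : Set α) := hy
  rw [← h5] at this
  exact this

variable {F K : Type*} [Field F] [Field K] [Algebra F K] {X : Subgroup (K ≃ₗ[F] K)}

theorem finrank_spn {x y : ℙ F K} (h : x ≠ y) : finrank F (spn x y) = 2 := by
  have := finrank_span_eq_card (Projectivization.linearIndependent_pair_iff_ne.mpr h)
  rw [Matrix.range_cons, Matrix.range_cons, Matrix.range_empty, Set.union_empty,
    Submodule.span_union, ← Projectivization.submodule_eq, ← Projectivization.submodule_eq]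
    at this
  exact this

theorem spn_eq [Finite K] {x y u v : ℙ F K} (h : x ≠ y) (h' : u ≠ v)
    (h1 : u.submodule ≤ spn x y) (h2 : v.submodule ≤ spn x y) : spn u v = spn x y :=
  Submodule.eq_of_le_of_finrank_eq (sup_le h1 h2) (by rw [finrank_spn h, finrank_spn h'])

theorem l1 (x y : ℙ F K) : x.submodule ≤ spn x y := le_sup_left

theorem l2 (x y : ℙ F K) : y.submodule ≤ spn x y := le_sup_right

theorem pt_le (g : GX X) {x y z : ℙ F K} (h : z.submodule ≤ spn x y) :
    (g • z).submodule ≤ spn (g • x) (g • y) :=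
  (l1 _ _).trans (spn_le g (u := z) (v := z) (sup_le h h))

theorem pt_iff (g : GX X) {x y z : ℙ F K} :
    (g • z).submodule ≤ spn (g • x) (g • y) ↔ z.submodule ≤ spn x y :=
  ⟨fun h => by simpa only [inv_smul_smul] using pt_le g⁻¹ h, pt_le g⟩

theorem li {x y : ℙ F K} (h : x ≠ y) (s t : F) (e : s • x.rep + t • y.rep = 0) : s = 0 ∧ t = 0 :=
  LinearIndependent.pair_iff.mp (Projectivization.linearIndependent_pair_iff_ne.mpr h) s t e

/-- The affine points of a line. -/
noncomputable def pt {x y : ℙ F K} (h : x ≠ y) (t : F) : ℙ F K :=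
  Projectivization.mk F (t • x.rep + y.rep) fun e =>
    one_ne_zero (li h t 1 (by rwa [one_smul])).2

theorem pt_inj {x y : ℙ F K} (h : x ≠ y) {s t : F} (e : pt h s = pt h t) : s = t := by
  obtain ⟨a, ha⟩ := (Projectivization.mk_eq_mk_iff' F _ _ _ _).mp e
  obtain ⟨h1, h2⟩ := li h (a * t - s) (a - 1) (by
    rw [← sub_eq_zero] at ha
    rw [← ha]; module)
  rw [sub_eq_zero] at h1 h2
  rw [← h1, h2, one_mul]

theorem pt_ne {x y : ℙ F K} (h : x ≠ y) (t : F) : pt h t ≠ x := fun e => by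
  obtain ⟨a, ha⟩ := (Projectivization.mk_eq_mk_iff' F _ _ _ _).mp (e.trans x.mk_rep.symm)
  refine one_ne_zero (li h (t - a) 1 ?_).2
  rw [sub_smul, ha]; module

theorem mem_spn {x y : ℙ F K} {u : K} : u ∈ spn x y ↔ ∃ a b : F, a • x.rep + b • y.rep = u := by
  rw [spn, Projectivization.submodule_eq, Projectivization.submodule_eq, ← Submodule.span_union,
    Set.singleton_union, Submodule.mem_span_pair]

theorem pt_mem {x y : ℙ F K} (h : x ≠ y) (t : F) : (pt h t).submodule ≤ spn x y := by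
  rw [pt, Projectivization.submodule_mk, Submodule.span_singleton_le_iff_mem, mem_spn]
  exact ⟨t, 1, by rw [one_smul]⟩

theorem ex_pt {x y z : ℙ F K} (h : x ≠ y) (hz : z.submodule ≤ spn x y) (hx : z ≠ x) :
    ∃ t, z = pt h t := by
  rw [Projectivization.submodule_eq, Submodule.span_singleton_le_iff_mem, mem_spn] at hz
  obtain ⟨a, b, e⟩ := hz
  have hb : b ≠ 0 := fun hb => hx (by
    rw [← z.mk_rep, ← x.mk_rep, Projectivization.mk_eq_mk_iff']
    exact ⟨a, by rw [← e, hb, zero_smul, add_zero]⟩)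
  refine ⟨b⁻¹ * a, ?_⟩
  rw [← z.mk_rep, pt, Projectivization.mk_eq_mk_iff']
  exact ⟨b, by rw [← e, smul_add, smul_smul, mul_inv_cancel_left₀ hb]⟩

/-- The stabiliser of a flag. -/
def Bf (X : Subgroup (K ≃ₗ[F] K)) (x y : ℙ F K) (g : GX X) : Prop :=
  g • x = x ∧ ∀ z : ℙ F K, (g • z).submodule ≤ spn x y ↔ z.submodule ≤ spn x y

theorem Bf.mul {x y : ℙ F K} {g k : GX X} (h : Bf X x y g) (h' : Bf X x y k) : Bf X x y (g * k) :=
  ⟨by rw [mul_smul, h'.1, h.1], fun z => by rw [mul_smul, h.2, h'.2]⟩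

theorem Bf.inv {x y : ℙ F K} {g : GX X} (h : Bf X x y g) : Bf X x y g⁻¹ :=
  ⟨by rw [inv_smul_eq_iff, h.1], fun z => by rw [← h.2, smul_inv_smul]⟩

theorem aff {x y : ℙ F K} (h : x ≠ y) {g : GX X} (hg : Bf X x y g) :
    ∃ α β : F, α ≠ 0 ∧ ∀ t, g • pt h t = pt h (α * t + β) := by
  have h2 := (hg.2 y).mpr (l2 x y)
  have h1 := hg.1
  clear hg
  obtain ⟨_, g, hgX, rfl⟩ := g
  change pm F K g x = x at h1
  change (pm F K g y).submodule ≤ _ at h2
  rw [← y.mk_rep, pm_mk, Projectivization.submodule_mk, Submodule.span_singleton_le_iff_mem,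
    Projectivization.mk_rep, mem_spn] at h2
  obtain ⟨c, b, e⟩ := h2
  obtain ⟨a, ha⟩ := (pm_mk_eq (g := g) x.rep_nonzero x.rep_nonzero).mp (by rwa [x.mk_rep])
  have ha0 : a ≠ 0 := fun e => x.rep_nonzero (by simpa [e] using ha)
  have hb : b ≠ 0 := fun hb => ha0 (li h (-c) a (g.injective (by
    rw [map_add, map_smul, map_smul, ← e, ha, hb, map_zero]; module))).2
  refine ⟨b⁻¹ * a, b⁻¹ * c, mul_ne_zero (inv_ne_zero hb) ha0, fun t => ?_⟩
  refine (pm_mk_eq _ _).mpr ⟨b, ?_⟩
  rw [map_add, map_smul, ha, ← e, smul_add b, smul_smul b, mul_add, mul_assoc b⁻¹,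
    mul_inv_cancel_left₀ hb, mul_inv_cancel_left₀ hb]
  module

theorem dich (p : ℕ) [CharP F p] {x y : ℙ F K} (h : x ≠ y) :
    (∃ z, z ≠ x ∧ z.submodule ≤ spn x y ∧ ∀ g, Bf X x y g → g • z = z) ∨
    ∃ g, Bf X x y g ∧ (∀ z : ℙ F K, z.submodule ≤ spn x y → (g ^ p) • z = z) ∧
      ∀ z : ℙ F K, z.submodule ≤ spn x y → (g • z = z ↔ z = x) := by
  by_cases hA : ∃ g, Bf X x y g ∧ ∃ β : F, β ≠ 0 ∧ ∀ t, g • pt h t = pt h (t + β)
  · right
    obtain ⟨g, hg, β, hβ, e⟩ := hA
    have h1 : ∀ m : ℕ, (g ^ m) • x = x ∧ ∀ t, (g ^ m) • pt h t = pt h (t + m * β) := fun m => by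
      induction m with
      | zero => simp
      | succ m ih =>
        refine ⟨by rw [pow_succ, mul_smul, hg.1, ih.1], fun t => ?_⟩
        rw [pow_succ', mul_smul, ih.2, e]
        congr 1
        push_cast
        ring
    refine ⟨g, hg, fun z hz => ?_, fun z hz => ⟨fun e' => ?_, fun e' => by rw [e', hg.1]⟩⟩
    · by_cases hx : z = x
      · rw [hx, (h1 p).1]
      · obtain ⟨t, rfl⟩ := ex_pt h hz hx
        rw [(h1 p).2, CharP.cast_eq_zero, zero_mul, add_zero]
    · by_contra hx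
      obtain ⟨t, rfl⟩ := ex_pt h hz hx
      rw [e] at e'
      exact hβ (by simpa using pt_inj h e')
  · left
    have hB : ∀ g, Bf X x y g → ∀ β : F, (∀ t, g • pt h t = pt h (t + β)) → β = 0 :=
      fun g hg β e => by_contra fun hβ => hA ⟨g, hg, β, hβ, e⟩
    by_cases hT : ∀ g, Bf X x y g → g • pt h 0 = pt h 0
    · exact ⟨_, pt_ne h 0, pt_mem h 0, hT⟩
    push Not at hT
    obtain ⟨g0, hg0, hn⟩ := hT
    obtain ⟨α0, β0, hα0, e0⟩ := aff h hg0
    have h1 : 1 - α0 ≠ 0 := fun e => by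
      obtain rfl : 1 = α0 := sub_eq_zero.mp e
      simp only [one_mul] at e0
      exact hn (by rw [e0, hB g0 hg0 β0 e0, add_zero])
    refine ⟨_, pt_ne h (β0 / (1 - α0)), pt_mem h _, fun g hg => ?_⟩
    obtain ⟨α, β, hα, e⟩ := aff h hg
    have hk := (hg.mul hg0).inv.mul (hg0.mul hg)
    obtain ⟨α', β', -, e'⟩ := aff h hk
    have h2 : ∀ t, α * (α0 * (α' * t + β') + β0) + β = α0 * (α * t + β) + β0 := fun t => by
      apply pt_inj h
      rw [← e, ← e0, ← e', ← e0, ← e, ← mul_smul g, ← mul_smul, mul_inv_cancel_left, mul_smul]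
    have h3 : α' = 1 := by
      apply mul_left_cancel₀ (mul_ne_zero hα hα0)
      linear_combination h2 1 - h2 0
    subst h3
    simp only [one_mul] at e'
    have h4 := hB _ hk β' e'
    have h5 := h2 0
    rw [h4] at h5
    rw [e]
    congr 1
    field_simp
    linear_combination h5

theorem cnt_lines [Finite F] [Fintype (ℙ F K)] (S : ℙ F K → Prop) {x : ℙ F K} (hx : ¬ S x) :
    ∑ v : ℙ F K, Nat.card {z // S z ∧ v ≠ x ∧ v.submodule ≤ spn x z} =
      Nat.card {z // S z} * Nat.card F := by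
  rw [← TwoA.sum_swap fun z v : ℙ F K => S z ∧ v ≠ x ∧ v.submodule ≤ spn x z]
  refine TwoA.sum_ite_card S _ _ (fun z hz => ?_) fun z hz => ?_
  · have h1 := card_erase (fun v : ℙ F K => v.submodule ≤ spn x z) (l1 x z)
    rw [card_line (fun e : x = z => hx (e ▸ hz)), add_left_inj] at h1
    rw [← h1]
    exact Nat.card_congr (Equiv.subtypeEquivRight fun v => by simp only [hz, true_and])
  · have : IsEmpty {v : ℙ F K // S z ∧ v ≠ x ∧ v.submodule ≤ spn x z} := ⟨fun v => hz v.2.1⟩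
    exact Nat.card_of_isEmpty

end Cfsg.Agent.S7.TwoG
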