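import Mathlib

/-! Arithmetic for the double transitivity in the Singer case, small prime dimension. -/

set_option autoImplicit false

namespace Cfsg.Agent.S7.TwoN

theorem sqb {n e c R q μ : ℤ} (hP : n * c = q * (q + 1) * R + 1)
    (hE : 2 * (μ * R - e * c) ^ 2 ≤ 3 * n ^ 2 * (n + 1) * (μ * R)) :
    2 * (R * (n * μ - e * (q * (q + 1))) - e) ^ 2 ≤ 3 * n ^ 4 * (n + 1) * (μ * R) := by
  have key : R * (n * μ - e * (q * (q + 1))) - e = n * (μ * R - e * c) := by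
    linear_combination e * hP
  rw [key, mul_pow]
  have := mul_le_mul_of_nonneg_left hE (sq_nonneg n)
  linarith

theorem ar3 {n e c R q μ : ℤ} (hP : n * c = q * (q + 1) * R + 1)
    (hE : 2 * (μ * R - e * c) ^ 2 ≤ 3 * n ^ 2 * (n + 1) * (μ * R)) (h1 : 1 ≤ μ) (h2 : μ ≤ q + 1)
    (he : 0 ≤ e) (hn : 1 ≤ n) (hq : n < q) (H0 : 3 * n ^ 2 * (n + 1) < 2 * R)
    (H1 : 3 * n ^ 4 * (n + 1) < 2 * R * (q + 1)) : False := by
  have hn3 : 0 < 3 * n ^ 2 * (n + 1) := by positivity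
  have hR : 0 < R := by omega
  have hμ : 0 < μ * R := by positivity
  rcases he.eq_or_lt with rfl | he
  · rw [zero_mul, sub_zero, pow_two, ← mul_assoc] at hE
    have := le_of_mul_le_mul_right hE hμ
    nlinarith
  · have h3 := sqb hP hE
    have hq0 : 0 < q * (q + 1) := by nlinarith
    have h4 : n * μ - e * (q * (q + 1)) ≤ -(q + 1) := by nlinarith
    have h5 : R * (q + 1) ≤ -(R * (n * μ - e * (q * (q + 1))) - e) := by nlinarith
    have h6 : 0 < R * (q + 1) := by nlinarith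
    have h7 : (R * (q + 1)) ^ 2 ≤ (R * (n * μ - e * (q * (q + 1))) - e) ^ 2 := by
      rw [← neg_sq (R * _ - e)]
      exact pow_le_pow_left₀ h6.le h5 2
    have h8 : 3 * n ^ 4 * (n + 1) * (μ * R) ≤ 3 * n ^ 4 * (n + 1) * (R * (q + 1)) :=
      mul_le_mul_of_nonneg_left (by nlinarith) (by positivity)
    have h9 : 2 * (R * (q + 1)) * (R * (q + 1)) ≤ 3 * n ^ 4 * (n + 1) * (R * (q + 1)) := by
      nlinarith
    have := le_of_mul_le_mul_right h9 h6
    linarith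

theorem ar5 {n e c R q t : ℤ} (hP : n * c = q * (q + 1) * R + 1)
    (hE : 2 * (t * (q + 1) * R - e * c) ^ 2 ≤ 3 * n ^ 2 * (n + 1) * (t * (q + 1) * R))
    (h2 : t ≤ q) (he : 0 ≤ e) (hen : e ≤ n) (hn : 1 ≤ n) (hq : n < q) (hR : n ≤ R)
    (hd : n * t - e * q ≠ 0) (H2 : 3 * n ^ 4 * (n + 1) * (q + 1) < 2 * R * q) : False := by
  have h3 := sqb hP hE
  have e1 : R * (n * (t * (q + 1)) - e * (q * (q + 1))) = R * (q + 1) * (n * t - e * q) := by ring
  rw [e1] at h3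
  set d := n * t - e * q
  have h6 : 0 < R * q := by nlinarith
  have h6' : 0 < R * (q + 1) := by nlinarith
  have h7 : (R * q) ^ 2 ≤ (R * (q + 1) * d - e) ^ 2 := by
    rcases lt_or_gt_of_ne hd with h | h
    · rw [← neg_sq (R * _ * d - e)]
      exact pow_le_pow_left₀ h6.le (by nlinarith) 2
    · exact pow_le_pow_left₀ h6.le (by nlinarith) 2
  have h8 : 3 * n ^ 4 * (n + 1) * (t * (q + 1) * R) ≤ 3 * n ^ 4 * (n + 1) * ((q + 1) * (R * q)) :=
    mul_le_mul_of_nonneg_left (by nlinarith) (by positivity)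
  have h9 : 2 * (R * q) * (R * q) ≤ 3 * n ^ 4 * (n + 1) * (q + 1) * (R * q) := by
    nlinarith
  have := le_of_mul_le_mul_right h9 h6
  linarith

theorem ar8 {e c R t : ℤ} (hP : 7 * c = 8 * (8 + 1) * R + 1) (hc : 7 * c = 299593)
    (hE : 2 * (t * (8 + 1) * R - e * c) ^ 2 ≤ 3 * 7 ^ 2 * (7 + 1) * (t * (8 + 1) * R))
    (h1 : 1 ≤ t) (h2 : t ≤ 4) (he : 0 ≤ e) (hen : e ≤ 7) : False := by
  obtain rfl : c = 42799 := by omega
  obtain rfl : R = 4161 := by omega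
  interval_cases t <;> interval_cases e <;> norm_num at hE

theorem nums {n q m R : ℕ} (hm : n = 2 * m + 3) (h7 : 7 ≤ n) (hq : 1 < q) (hd : n ∣ q - 1)
    (hR : q ^ (2 * m) ≤ R) : n < q ∧ n * n < R ∧ 3 * n ^ 2 * (n + 1) < 2 * R ∧
      3 * n ^ 4 * (n + 1) < 2 * R * (q + 1) ∧
      (n = 7 ∧ q = 8 ∨ 3 * n ^ 4 * (n + 1) * (q + 1) < 2 * R * q) := by
  obtain ⟨t, ht⟩ := hd
  have ht1 : 1 ≤ t := Nat.pos_of_ne_zero fun e => by rw [e] at ht; omega
  have hnq : n < q := by nlinarith [Nat.sub_add_cancel hq.le]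
  have h4 : q ^ 4 ≤ R := (Nat.pow_le_pow_right (by omega) (by omega)).trans hR
  have h5 : (n + 1) ^ 4 ≤ R := (Nat.pow_le_pow_left hnq 4).trans h4
  have h6 : n = 7 ∧ q = 8 ∨ 3 * n ^ 4 * (n + 1) * (q + 1) < 2 * R * q := by
    by_cases h : n = 7
    · subst h
      by_cases h8 : q = 8
      · exact Or.inl ⟨rfl, h8⟩
      · right
        have : 15 ^ 4 ≤ q ^ 4 := Nat.pow_le_pow_left (by omega) 4
        have h15 : 15 ≤ q := by omega
        nlinarith
    · right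
      have h9 : q ^ 6 ≤ R := (Nat.pow_le_pow_right (by omega) (by omega)).trans hR
      have h10 : (n + 1) ^ 6 ≤ R := (Nat.pow_le_pow_left hnq 6).trans h9
      have h11 : 3 * n ^ 4 * (n + 1) < (n + 1) ^ 6 := by
        have a1 : n ^ 4 ≤ (n + 1) ^ 4 := Nat.pow_le_pow_left (by omega) 4
        have a2 : 0 < (n + 1) ^ 4 * (n + 1) := by positivity
        calc 3 * n ^ 4 * (n + 1) ≤ 3 * ((n + 1) ^ 4 * (n + 1)) := by nlinarith
          _ < (n + 1) * ((n + 1) ^ 4 * (n + 1)) := Nat.mul_lt_mul_of_pos_right (by omega) a2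
          _ = _ := by ring
      nlinarith
  refine ⟨hnq, by nlinarith [Nat.zero_le (n ^ 4), Nat.zero_le (n ^ 3)],
    by nlinarith [Nat.zero_le (n ^ 4), Nat.zero_le (n ^ 3)], ?_, h6⟩
  rcases h6 with ⟨rfl, rfl⟩ | h6
  · omega
  · nlinarith [Nat.zero_le (3 * n ^ 4 * (n + 1) * q)]

theorem trans_of {α : Type*} [Finite α] {p : ℕ} [Fact p.Prime] (S O : α → Prop) {x y : α}
    (hx : O x) (hOS : ∀ z, O z → S z) (g g' : Equiv.Perm α) (h1 : ∀ z, O (g z) ↔ O z)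
    (h1' : ∀ z, O (g' z) ↔ O z) (h2 : ∀ z, S z → (g ^ p) z = z) (h2' : ∀ z, S z → (g' ^ p) z = z)
    (h3 : ∀ z, S z → (g z = z ↔ z = x)) (h3' : ∀ z, S z → g' z = z → z = y) : O y := by
  classical
  have := Fintype.ofFinite {z // O z}
  have key : ∀ (g : Equiv.Perm α) (h1 : ∀ z, O (g z) ↔ O z), (∀ z, S z → (g ^ p) z = z) →
      (g.subtypePerm h1) ^ p ^ 1 = 1 := fun g h1 h2 => by
    rw [pow_one, Equiv.Perm.subtypePerm_pow]
    ext z
    exact h2 _ (hOS _ z.2)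
  by_cases hp : p ∣ Fintype.card {z // O z}
  · obtain ⟨b, hb, hb'⟩ := Equiv.Perm.exists_fixed_point_of_prime' hp (key g h1 h2)
      (a := ⟨x, hx⟩) (Subtype.ext ((h3 x (hOS x hx)).mpr rfl))
    exact absurd (Subtype.ext ((h3 _ (hOS _ b.2)).mp (congrArg Subtype.val hb))) hb'
  · obtain ⟨b, hb⟩ := Equiv.Perm.exists_fixed_point_of_prime hp (key g' h1' h2')
    exact h3' _ (hOS _ b.2) (congrArg Subtype.val hb) ▸ b.2

end Cfsg.Agent.S7.TwoN
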