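import Mathlib
import Cfsg.Agent.S7.E2s
import Cfsg.Agent.S7.TwoN
import Cfsg.Agent.S7.TwoG

/-! Double transitivity on points in the Singer case, for every prime dimension at least seven. -/

set_option autoImplicit false

namespace Cfsg.Agent.S7

open Module Cfsg.Agent.SG Cfsg.Agent.S7.TwoG
open scoped LinearAlgebra.Projectivization

variable {F K : Type*} [Field F] [Field K] [Algebra F K] [Fintype F] [Finite K]
  {X : Subgroup (K ≃ₗ[F] K)}

theorem two {f : ℕ} (hn : (finrank F K).Prime) (h7 : 7 ≤ finrank F K)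
    (hd : finrank F K ∣ Fintype.card F - 1)
    (hy : SG.Ex.Hy (SG.AX X) (ℙ F K) (finrank F K) (finrank F K) f)
    (hN : ∀ z ∈ Subgroup.normalizer (SG.AX X : Set (SG.GX X)), ∀ ω : ℙ F K,
      ∃ a ∈ SG.AX X, z • ω = a • ω) :
    ∀ x y x' y' : ℙ F K, x ≠ y → x' ≠ y' → ∃ g : SG.GX X, g • x = x' ∧ g • y = y' := by
  classical
  have := Fintype.ofFinite (ℙ F K)
  have hc := hy.card
  have E1 : ∀ Γ : ℙ F K → ℙ F K → Prop, (∀ (g : GX X) x y, Γ x y → Γ (g • x) (g • y)) →
      ∀ a ∈ AX X, a ≠ 1 → ∀ b ∈ AX X, b ≠ 1 →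
        Nat.card {x // Γ x (a • x)} = Nat.card {x // Γ x (b • x)} :=
    fun Γ hΓ a ha ha1 b hb hb1 => Ex.E1 hy hΓ ha ha1 hb hb1
  have E2 : ∀ Γ : ℙ F K → ℙ F K → Prop, (∀ (g : GX X) x y, Γ x y → Γ (g • x) (g • y)) →
      ∀ x0 : ℙ F K, (∀ b, ∃ g : GX X, g • x0 = b) → ∀ a ∈ AX X, a ≠ 1 →
      2 * ((Nat.card {b // Γ x0 b} : ℤ) - Nat.card {x // Γ x (a • x)}) ^ 2 ≤
        3 * (finrank F K : ℤ) ^ 2 * (finrank F K + 1) * Nat.card {b // Γ x0 b} :=
    fun Γ hΓ x0 ht a ha ha1 => E2s.e2t hy hΓ hN x0 ht ha ha1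
  obtain ⟨a, ha, ha1⟩ := (AX X).bot_or_exists_ne_one.resolve_left hy.ca.ne_bot
  clear hy hN
  obtain ⟨m, hm⟩ : ∃ m, finrank F K = 2 * m + 3 := by
    rcases hn.eq_two_or_odd' with h | ⟨k, h⟩
    · omega
    · exact ⟨k - 1, by omega⟩
  obtain ⟨R, hR, hR2⟩ := TwoA.geom (Fintype.card F) m
  obtain ⟨hq, N1, H0, H1, H2⟩ := TwoN.nums hm h7 Fintype.one_lt_card hd hR2
  have hsum := Projectivization.card_of_finrank F K (n := finrank F K) rfl
  rw [← Nat.card_eq_fintype_card, ← Projectivization.card_of_finrank F K hm,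
    Nat.card_eq_fintype_card (α := F)] at hR
  rw [Nat.card_eq_fintype_card (α := F)] at hsum
  have hqF : Nat.card F = Fintype.card F := Nat.card_eq_fintype_card
  set n := finrank F K
  set q := Fintype.card F with hqd
  set c := Nat.card (AX X) with hcd
  have hc0 : 0 < c := Nat.card_pos
  have hq0 : 0 < c * (q * (q + 1)) := by
    have : 0 < q := by omega
    positivity
  have hP : n * c = q * (q + 1) * R + 1 := hc.symm.trans hR
  have hPz : (n : ℤ) * c = q * (q + 1) * R + 1 := by exact_mod_cast hP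
  have hle : ∀ (S : ℙ F K → Prop) (e : ℕ), Nat.card {x // S x} = c * e → e ≤ n := fun S e h => by
    have : Nat.card {x // S x} ≤ Nat.card (ℙ F K) := Finite.card_subtype_le _
    rw [h, hc, mul_comm n] at this
    exact Nat.le_of_mul_le_mul_left this hc0
  -- transitivity on points
  have tr : ∀ x0 x : ℙ F K, ∃ g : GX X, g • x0 = x := fun x0 => by
    let O : ℙ F K → Prop := fun x => ∃ g : GX X, g • x0 = x
    have hO : ∀ (g : GX X) x, O x → O (g • x) := fun g x ⟨k, hk⟩ => ⟨g * k, by rw [mul_smul, hk]⟩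
    obtain ⟨j, hj⟩ : c ∣ Nat.card {x // O x} := TwoA.dvd_free AX_free O fun b x hx => hO b x hx
    obtain ⟨s, hs⟩ : ∃ s, Nat.card {x // O x} = s + 1 := Nat.exists_eq_succ_of_ne_zero
      (Nat.card_pos_iff.mpr ⟨⟨⟨x0, 1, one_smul _ _⟩⟩, inferInstance⟩).ne'
    obtain ⟨M, hM⟩ := dvd_orb hq hc E1 ha ha1 (Γ := fun u v => u ≠ v ∧ O u ∧ O v)
      (fun g x y h => ⟨fun e => h.1 (MulAction.injective g e), hO g _ h.2.1, hO g _ h.2.2⟩)
      fun u h => h.1 rfl
    rw [TwoA.card_offDiag O s hs, hR, Nat.add_sub_cancel, hqF, ← hcd, ← hs, hj] at hM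
    have h1 : s * j = R * M := by
      apply Nat.eq_of_mul_eq_mul_left hq0
      linear_combination hM
    have h2 := hle O j hj
    have h3 : c * j = s + 1 := hj.symm.trans hs
    have h4 : R ∣ j * (n - j) := by
      zify [h2] at h1 h3 ⊢
      exact ⟨q * (q + 1) * j * j - n * M, by
        linear_combination (-n) * h1 - n * j * h3 + j * j * hPz⟩
    have h5 := Nat.eq_zero_of_dvd_of_lt h4
      ((Nat.mul_le_mul h2 (Nat.sub_le _ _)).trans_lt N1)
    have h6 : j = n := by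
      rcases Nat.mul_eq_zero.mp h5 with h | h
      · rw [h] at h3; omega
      · omega
    rw [h6, mul_comm, ← hc] at hj
    have h7 : ({x | O x} : Set (ℙ F K)) = Set.univ :=
      Set.eq_of_subset_of_ncard_le (Set.subset_univ _) (by rw [Set.ncard_univ]; exact hj.ge)
    exact fun x => (Set.eq_univ_iff_forall.mp h7) x
  have tot : ∀ Γ : ℙ F K → ℙ F K → Prop, (∀ (g : GX X) x y, Γ x y → Γ (g • x) (g • y)) →
      ∀ x0, Nat.card {p : ℙ F K × ℙ F K // Γ p.1 p.2} = n * c * Nat.card {b // Γ x0 b} :=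
    fun Γ hG x0 => by
      rw [TwoA.card_prod_sub, Finset.sum_congr rfl (g := fun _ => Nat.card {b // Γ x0 b}),
        Finset.sum_const, Finset.card_univ, ← Nat.card_eq_fintype_card, hc, smul_eq_mul]
      intro x _
      obtain ⟨g, rfl⟩ := tr x0 x
      exact (TwoA.card_inv g _ _ (fun y hy => hG g _ _ hy) fun y hy => by
        simpa only [inv_smul_smul] using hG g⁻¹ _ _ hy).symm
  have rel : ∀ Γ : ℙ F K → ℙ F K → Prop, (∀ (g : GX X) x y, Γ x y → Γ (g • x) (g • y)) →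
      (∀ u, ¬ Γ u u) → ∀ x0, ∃ μ e : ℕ, Nat.card {b // Γ x0 b} = μ * R ∧ e ≤ n ∧
        2 * ((μ : ℤ) * R - e * c) ^ 2 ≤ 3 * (n : ℤ) ^ 2 * (n + 1) * (μ * R) :=
    fun Γ hG hne x0 => by
      obtain ⟨M, hM⟩ := dvd_orb hq hc E1 ha ha1 hG hne
      rw [tot Γ hG x0, hR, Nat.add_sub_cancel, hqF, ← hcd] at hM
      have h1 : n * Nat.card {b // Γ x0 b} = R * M := by
        apply Nat.eq_of_mul_eq_mul_left hq0
        linear_combination hM
      obtain ⟨μ, hμ⟩ := (Nat.isCoprime_iff_coprime.mp (⟨-(q * (q + 1)), c, by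
        linear_combination hPz⟩ : IsCoprime (R : ℤ) n)).dvd_of_dvd_mul_left ⟨M, h1⟩
      obtain ⟨e, he⟩ : c ∣ Nat.card {x // Γ x (a • x)} := dvd_cnt hG ha
      have h2 := E2 Γ hG x0 (tr x0) a ha ha1
      rw [hμ, he, mul_comm R, mul_comm c] at h2
      exact ⟨μ, e, by rw [hμ, mul_comm], hle _ e he, by exact_mod_cast h2⟩
  -- transitivity on lines
  have hline : ∀ x y u v : ℙ F K, x ≠ y → u ≠ v →
      ∃ g : GX X, spn (g • x) (g • y) = spn u v := fun x y u v hxy huv => by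
    let Q : ℙ F K → ℙ F K → Prop := fun u v => u ≠ v ∧ ∃ g : GX X, spn (g • x) (g • y) = spn u v
    have hG : ∀ (g : GX X) u v, Q u v → Q (g • u) (g • v) := fun g u v ⟨h, k, hk⟩ =>
      ⟨fun e => h (MulAction.injective g e), g * k, by
        rw [mul_smul, mul_smul]; exact le_antisymm (spn_le g hk.le) (spn_le g hk.ge)⟩
    obtain ⟨M, hM⟩ := dvd_pairs hq hc E1 ha ha1 hG (fun u h => h.1 rfl)
      fun u v u' v' _ h2 h3 h => ⟨h2, h3 ▸ h.2⟩
    rw [tot Q hG x, hR, Nat.add_sub_cancel, ← hcd] at hM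
    have h1 : n * Nat.card {b // Q x b} = q * (q + 1) * R * M := by
      apply Nat.eq_of_mul_eq_mul_left hc0
      linear_combination hM
    have h2 := Nat.le_of_dvd (Nat.card_pos_iff.mpr ⟨⟨⟨y, hxy, 1, by simp⟩⟩, inferInstance⟩)
      ((Nat.isCoprime_iff_coprime.mp (⟨-1, c, by push_cast; linear_combination hPz⟩ :
        IsCoprime ((q * (q + 1) * R : ℕ) : ℤ) n)).dvd_of_dvd_mul_left ⟨M, h1⟩)
    have h3 := all_of (Q x) (x := x) (fun h => h.1 rfl) (by omega)
    obtain ⟨g, rfl⟩ := tr x u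
    have := hG g _ _ (h3 (g⁻¹ • v) fun e => huv (by rw [← e, smul_inv_smul]))
    rw [smul_inv_smul] at this
    exact this.2
  have hO : ∀ (x0 y0 : ℙ F K) (g : GX X) x y, Orb X x0 y0 x y → Orb X x0 y0 (g • x) (g • y) :=
    fun x0 y0 g x y ⟨k, h1, h2⟩ => ⟨g * k, by rw [mul_smul, h1], by rw [mul_smul, h2]⟩
  have hI : ∀ x0 y0 : ℙ F K, x0 ≠ y0 → ∀ u, ¬ Orb X x0 y0 u u := fun x0 y0 h u ⟨g, h1, h2⟩ =>
    h (MulAction.injective g (h1.trans h2.symm))
  have hpos : ∀ x0 y0 : ℙ F K, 0 < Nat.card {b // Orb X x0 y0 x0 b} := fun x0 y0 =>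
    Nat.card_pos_iff.mpr ⟨⟨⟨y0, 1, one_smul _ _, one_smul _ _⟩⟩, inferInstance⟩
  have hcompl : ∀ x : ℙ F K, Nat.card {v // v ≠ x} = q * (q + 1) * R := fun x => by
    rw [Nat.card_eq_fintype_card, Fintype.card_subtype_compl, Fintype.card_subtype_eq,
      ← Nat.card_eq_fintype_card, hR, Nat.add_sub_cancel]
  have hqR : 0 < q * R := by
    have : 0 < q := by omega
    have : 0 < R := by omega
    positivity
  -- elations on lines
  obtain ⟨p, hp⟩ := CharP.exists F
  have : Fact p.Prime := ⟨CharP.char_is_prime F p⟩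
  have ela : ∀ x y : ℙ F K, x ≠ y → ∃ g, Bf X x y g ∧
      (∀ z : ℙ F K, z.submodule ≤ spn x y → (g ^ p) • z = z) ∧
      ∀ z : ℙ F K, z.submodule ≤ spn x y → (g • z = z ↔ z = x) := fun x y h => by
    refine (dich p h).resolve_left fun ⟨z0, h1, h2, h3⟩ => ?_
    obtain ⟨μ, e, hk, -, hE⟩ := rel _ (hO x z0) (hI x z0 h1.symm) x
    have h4 := cnt_lines (Orb X x z0 x) (hI x z0 h1.symm x)
    have h5 : ∑ v : ℙ F K, Nat.card {z // Orb X x z0 x z ∧ v ≠ x ∧ v.submodule ≤ spn x z} ≤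
        ∑ v : ℙ F K, if v ≠ x then 1 else 0 := Finset.sum_le_sum fun v _ => by
      split_ifs with hv
      · refine Finite.card_le_one_iff_subsingleton.mpr ⟨?_⟩
        rintro ⟨_, ⟨g, g1, rfl⟩, -, g3⟩ ⟨_, ⟨k, k1, rfl⟩, -, k3⟩
        have n1 : ∀ g : GX X, g • x = x → x ≠ g • z0 := fun g g1 e =>
          h1 (MulAction.injective g (e.symm.trans g1.symm))
        have e1 := (spn_eq (n1 g g1) hv.symm (l1 _ _) g3).symm.trans
          (spn_eq (n1 k k1) hv.symm (l1 _ _) k3)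
        have e2 := spn_eq h h1.symm (l1 _ _) h2
        have := h3 (k⁻¹ * g) ⟨by rw [mul_smul, g1, inv_smul_eq_iff, k1], fun z => by
          rw [← e2, ← pt_iff k, mul_smul, smul_inv_smul, k1, ← e1, ← pt_iff g (z := z), g1]⟩
        rw [mul_smul, inv_smul_eq_iff] at this
        exact Subtype.ext this
      · have : IsEmpty {z // Orb X x z0 x z ∧ v ≠ x ∧ v.submodule ≤ spn x z} :=
          ⟨fun z => hv z.2.2.1⟩
        exact Nat.card_of_isEmpty.le
    rw [h4, hk, hqF, Finset.sum_boole, ← Fintype.card_subtype, ← Nat.card_eq_fintype_card,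
      Nat.cast_id, hcompl] at h5
    have h6 : μ ≤ q + 1 := Nat.le_of_mul_le_mul_left (by linarith) hqR
    have h8 : 0 < μ := Nat.pos_of_mul_pos_right (hk ▸ hpos x z0)
    exact TwoN.ar3 hPz hE (by exact_mod_cast h8) (by exact_mod_cast h6) (by positivity)
      (by exact_mod_cast (show 1 ≤ n by omega)) (by exact_mod_cast hq) (by exact_mod_cast H0)
      (by exact_mod_cast H1)
  -- transitivity on flags
  have flag : ∀ x u v : ℙ F K, x ≠ u → x ≠ v →
      ∃ g : GX X, g • x = x ∧ spn x (g • u) = spn x v := fun x u v hu hv => by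
    obtain ⟨g, hg⟩ := hline x u x v hu hv
    have n1 : g • x ≠ g • u := fun e => hu (MulAction.injective g e)
    obtain ⟨s, s1, s2, s3⟩ := ela _ _ n1
    obtain ⟨t, t1, t2, t3⟩ := ela _ _ hv
    have s4 := s1.2
    rw [hg] at s2 s3 s4
    let O : ℙ F K → Prop := fun z => ∃ k : GX X,
      (∀ z : ℙ F K, (k • z).submodule ≤ spn x v ↔ z.submodule ≤ spn x v) ∧ k • g • x = z
    have hO : ∀ s : GX X, (∀ z : ℙ F K, (s • z).submodule ≤ spn x v ↔ z.submodule ≤ spn x v) →
        ∀ z, O (s • z) ↔ O z := fun s hs z =>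
      ⟨fun ⟨k, k1, k2⟩ => ⟨s⁻¹ * k, fun z => by rw [← hs, mul_smul, smul_inv_smul, k1],
        by rw [mul_smul, k2, inv_smul_smul]⟩,
      fun ⟨k, k1, k2⟩ => ⟨s * k, fun z => by rw [mul_smul, hs, k1], by rw [mul_smul, k2]⟩⟩
    obtain ⟨k, k1, k2⟩ := TwoN.trans_of (p := p) (fun z : ℙ F K => z.submodule ≤ spn x v) O
      (x := g • x) (y := x) ⟨1, by simp, one_smul _ _⟩
      (fun z ⟨k, k1, k2⟩ => by rw [← k2, k1, ← hg]; exact l1 _ _) s.1 t.1 (hO s s4) (hO t t1.2)
      s2 t2 s3 fun z hz => (t3 z hz).mp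
    refine ⟨k * g, by rw [mul_smul, k2], spn_eq hv (fun e => n1 (MulAction.injective k ?_))
      (l1 _ _) ?_⟩
    · exact k2.trans (e.trans (mul_smul k g u))
    · rw [mul_smul, k1, ← hg]; exact l2 _ _
  have val : ∀ Γ : ℙ F K → ℙ F K → Prop, (∀ (g : GX X) x y, Γ x y → Γ (g • x) (g • y)) →
      (∀ u, ¬ Γ u u) → ∀ x y, x ≠ y → ∃ t e : ℕ, Nat.card {b // Γ x b} = t * (q + 1) * R ∧ e ≤ n ∧
        2 * ((t : ℤ) * (q + 1) * R - e * c) ^ 2 ≤ 3 * (n : ℤ) ^ 2 * (n + 1) * (t * (q + 1) * R) :=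
    fun Γ hG hne x y h => by
      obtain ⟨μ, e, hk, he, hE⟩ := rel Γ hG hne x
      have h4 := cnt_lines (Γ x) (hne x)
      rw [TwoA.sum_ite_card (fun v => v ≠ x) _
        (Nat.card {z // Γ x z ∧ y ≠ x ∧ y.submodule ≤ spn x z}), hcompl, hk, hqF] at h4
      · have h5 : μ = Nat.card {z // Γ x z ∧ y ≠ x ∧ y.submodule ≤ spn x z} * (q + 1) :=
          Nat.eq_of_mul_eq_mul_left hqR (by linear_combination h4.symm)
        refine ⟨_, e, by rw [hk, h5], he, ?_⟩
        rw [h5] at hE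
        exact_mod_cast hE
      · intro v hv
        have key : ∀ (g : GX X) u v, g • x = x → spn x (g • u) = spn x v → v ≠ x → ∀ z,
            Γ x z ∧ u ≠ x ∧ u.submodule ≤ spn x z →
              Γ x (g • z) ∧ v ≠ x ∧ v.submodule ≤ spn x (g • z) := fun g u v g1 g2 hv z hz => by
          have a1 := hG g _ _ hz.1
          have a2 := pt_le g hz.2.2
          rw [g1] at a1 a2
          exact ⟨a1, hv, (l2 x v).trans (g2.ge.trans (sup_le (l1 _ _) a2))⟩
        obtain ⟨g, g1, g2⟩ := flag x v y hv.symm h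
        refine TwoA.card_inv g _ _ (key g v y g1 g2 h.symm) (key g⁻¹ y v ?_ ?_ hv)
        · rw [inv_smul_eq_iff, g1]
        · have b1 := spn_le g⁻¹ g2.le
          have b2 := spn_le g⁻¹ g2.ge
          have b3 : g⁻¹ • x = x := by rw [inv_smul_eq_iff, g1]
          rw [b3, inv_smul_smul] at b1 b2
          exact le_antisymm b2 b1
      · intro v hv
        have : IsEmpty {z // Γ x z ∧ v ≠ x ∧ v.submodule ≤ spn x z} := ⟨fun z => hv z.2.2.1⟩
        exact Nat.card_of_isEmpty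
  intro x y x' y' h h'
  obtain ⟨t, e, hk, he, hE⟩ := val _ (hO x y) (hI x y h) x y h
  obtain ⟨t', e', hk', he', hE'⟩ := val (fun u v => u ≠ v ∧ ¬ Orb X x y u v)
    (fun g u v hh => ⟨fun e => hh.1 (MulAction.injective g e), fun e => hh.2 (by
      simpa only [inv_smul_smul] using hO x y g⁻¹ _ _ e)⟩) (fun u hh => hh.1 rfl) x y h
  have hsplit : Nat.card {b // Orb X x y x b} + Nat.card {b // x ≠ b ∧ ¬ Orb X x y x b} =
      q * (q + 1) * R := by
    rw [← hcompl x]
    simp only [Nat.card_eq_fintype_card, Fintype.card_subtype]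
    rw [← Finset.card_union_of_disjoint (Finset.disjoint_filter.mpr fun b _ h1 h2 => h2.2 h1)]
    congr 1
    ext b
    simp only [Finset.mem_union, Finset.mem_filter, Finset.mem_univ, true_and]
    exact ⟨fun hb e => hb.elim (fun h1 => hI x y h x (e ▸ h1)) fun h1 => h1.1 e.symm,
      fun hb => (em _).imp_right fun h1 => ⟨hb.symm, h1⟩⟩
  have hqR' : 0 < (q + 1) * R := by
    have : 0 < R := by omega
    positivity
  have htt : t + t' = q := Nat.eq_of_mul_eq_mul_left hqR' (by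
    rw [hk, hk'] at hsplit; linear_combination hsplit)
  have ht0 : 0 < t := Nat.pos_of_ne_zero fun e => by
    have := hpos x y
    rw [hk, e] at this
    simp at this
  have ht' : t' = 0 := by
    by_contra ht'
    rcases H2 with ⟨h1, h2⟩ | H2
    · have h3 : (7 : ℤ) * c = 299593 := by
        rw [hc, h1, h2] at hsum
        norm_num [Finset.sum_range_succ] at hsum
        exact_mod_cast hsum
      rw [h1, h2] at hPz hE hE'
      by_cases h4 : t ≤ 4
      · exact TwoN.ar8 hPz h3 hE (by omega) (by omega) (by omega) (by omega)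
      · exact TwoN.ar8 hPz h3 hE' (by omega) (by omega) (by omega) (by omega)
    · refine TwoN.ar5 hPz hE (by omega) (by omega) (by omega) (by omega) (by omega)
        (by exact_mod_cast (Nat.le_mul_self n).trans N1.le) (fun e1 => ?_) (by exact_mod_cast H2)
      have h5 : q ∣ n * t := ⟨e, by zify; linear_combination e1⟩
      have h6 := (Nat.isCoprime_iff_coprime.mp (⟨-((q + 1) * R), c, by
        linear_combination hPz⟩ : IsCoprime (q : ℤ) n)).dvd_of_dvd_mul_left h5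
      have := Nat.le_of_dvd ht0 h6
      omega
  have hall := all_of (Orb X x y x) (hI x y h x) (by
    rw [hk', ht', zero_mul, zero_mul, add_zero] at hsplit
    omega)
  obtain ⟨g, rfl⟩ := tr x x'
  have := hO x y g _ _ (hall (g⁻¹ • y') fun e => h' (by rw [← e, smul_inv_smul]))
  rwa [smul_inv_smul] at this

end Cfsg.Agent.S7
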