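import Cfsg.Agent.SG.Ex

/-! A sharper bound for invariant relations when the normaliser index is seven. -/

set_option autoImplicit false

namespace Cfsg.Agent.S7

open Cfsg.Agent.H4.CABasic Cfsg.Agent.H4.Irr Cfsg.Agent.H4.CAChar Cfsg.Agent.H4.AbChar
open Cfsg.Agent.SG Cfsg.Agent.SG.Ex

variable {G Ω : Type*} [Group G] [MulAction G Ω] {A : Subgroup G} {j f : ℕ}
  {Γ : Ω → Ω → Prop}

theorem sq_bound7 [Fintype G] [Fintype Ω] (h : Hy A Ω 7 j f) (ω₀ : Ω)
    (hK : ∀ b : Ω, ∃ k ∈ Subgroup.normalClosure (A : Set G), k • ω₀ = b) {x : G} (hx : x ∈ A)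
    (x1 : x ≠ 1) :
    ∑ z : G, ∑ g : G, (Nat.card (MulAction.fixedBy Ω ((z * x * z⁻¹)⁻¹ * (g * x * g⁻¹))) : ℝ) ≤
      (Nat.card G : ℝ) ^ 2 * (1 + 4 / (Nat.card A - 1) ^ 2 * (j * Nat.card A)) := by
  classical
  obtain ⟨N, d, ρ, hρ⟩ := exists_irrSys G
  obtain ⟨lam, hl⟩ := exists_lam h.ca
  have := finite_chars h.ca.comm'
  have := Fintype.ofFinite (A →* ℂˣ)
  obtain ⟨m, hm1, hm⟩ := exists_m hρ (permRep ℂ G Ω)
  let c : Fin N → ℤ := fun i => (mult ρ (1 : A →* ℂˣ) i : ℤ) - mult ρ lam i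
  have hne : ∀ i, m i ≠ 0 → ∀ μ : A →* ℂˣ, μ ≠ 1 → mult ρ μ i = mult ρ lam i := fun i hi =>
    h.const hρ (by rw [hm1]; exact_mod_cast hi) hl
  have h1 : ∑ z : G, ∑ g : G,
      (Nat.card (MulAction.fixedBy Ω ((z * x * z⁻¹)⁻¹ * (g * x * g⁻¹))) : ℝ) =
      (Nat.card G : ℝ) ^ 2 * ∑ i, m i * ((c i : ℝ) ^ 2 / d i) := by
    have h2 : ∀ z : G, ∑ g : G,
        (Nat.card (MulAction.fixedBy Ω ((z * x * z⁻¹)⁻¹ * (g * x * g⁻¹))) : ℂ) =
        Nat.card G * ∑ i, m i * ((c i : ℂ) ^ 2 / d i) := fun z => by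
      have h3 := H1.PermChar.character_permRep (G := G) (Ω := Ω)
      simp only [← congrFun h3, hm]
      rw [Finset.sum_comm, Finset.mul_sum]
      refine Finset.sum_congr rfl fun i _ => ?_
      rw [← Finset.mul_sum, conv hρ]
      by_cases hi : m i = 0
      · simp [hi]
      rw [char_const (x := x) h.ca (hne i hi) (mem_conjs.2 ⟨1, x, hx, x1, by simp⟩),
        char_const (x := (z * x * z⁻¹)⁻¹) h.ca (hne i hi)
          (mem_conjs.2 ⟨z, x⁻¹, A.inv_mem hx, by simpa using x1, by group⟩)]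
      simp only [c]
      ring
    have h4 : ∑ z : G, ∑ g : G,
        (Nat.card (MulAction.fixedBy Ω ((z * x * z⁻¹)⁻¹ * (g * x * g⁻¹))) : ℂ) =
        (Nat.card G : ℂ) ^ 2 * ∑ i, m i * ((c i : ℂ) ^ 2 / d i) := by
      simp only [h2, Finset.sum_const, Finset.card_univ, nsmul_eq_mul, ← Nat.card_eq_fintype_card]
      ring
    exact_mod_cast h4
  rw [h1]
  refine mul_le_mul_of_nonneg_left ?_ (sq_nonneg _)
  have h2 : Module.finrank ℂ (Representation.invariants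
      ((permRep ℂ G Ω).comp (Subgroup.normalClosure (A : Set G)).subtype)) ≤ 1 := by
    refine finrank_le_one ⟨fun _ => 1, fun _ => rfl⟩ fun v => ⟨v.1 ω₀, Subtype.ext (funext fun b => ?_)⟩
    obtain ⟨k, hk, rfl⟩ := hK b
    have := congrFun (v.2 ⟨k, hk⟩) (k • ω₀)
    change v.1 (k⁻¹ • k • ω₀) = _ at this
    rw [inv_smul_smul] at this
    simpa using this
  rw [avg_eq _ hm] at h2
  have h3 := sum_sq_one_sub hρ h.ca hl
  rw [h.hw] at h3
  have h3' : ∑ i, c i ^ 2 = (7 : ℕ) + 1 := h3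
  have h4 : ∀ i, (c i : ℝ) ^ 2 ≤ 4 := fun i => by
    have e1 := Finset.single_le_sum (f := fun i => c i ^ 2) (fun _ _ => sq_nonneg _)
      (Finset.mem_univ i)
    rw [h3'] at e1
    push_cast at e1
    have e2 : c i ≤ 2 := by nlinarith
    have e3 : -2 ≤ c i := by nlinarith
    have e4 : c i ^ 2 ≤ 4 := by nlinarith
    exact_mod_cast e4
  have hdeg : ∑ i, m i * d i = j * Nat.card A := by
    have := hm 1
    simp only [hρ.char_one, Representation.char_one, Module.finrank_fintype_fun_eq_card] at this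
    rw [← h.card, Nat.card_eq_fintype_card]
    exact_mod_cast this.symm
  have ha : (1 : ℝ) < Nat.card A := by exact_mod_cast h.ca.one_lt_card
  have hdeg' : ∑ i, (m i : ℝ) * d i = j * Nat.card A := by exact_mod_cast hdeg
  rw [← hdeg', Finset.mul_sum]
  refine le_trans (Finset.sum_le_sum (g := fun i => ((m i * Module.finrank ℂ
    (Representation.invariants ((ρ i).comp (Subgroup.normalClosure (A : Set G)).subtype)) : ℕ) : ℝ) +
      4 / (Nat.card A - 1) ^ 2 * ((m i : ℝ) * d i)) fun i _ => ?_) ?_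
  · have h0 : (0 : ℝ) ≤ 4 / (Nat.card A - 1) ^ 2 * ((m i : ℝ) * d i) := by positivity
    by_cases hi : m i = 0
    · simp [hi]
    have h5 := deg_eq_sum hρ h.ca i
    rw [← Finset.add_sum_erase _ _ (Finset.mem_univ 1), Finset.sum_congr rfl fun μ hμ =>
      hne i hi μ (Finset.mem_erase.1 hμ).1, Finset.sum_const, Finset.card_erase_of_mem
      (Finset.mem_univ _), Finset.card_univ, ← Nat.card_eq_fintype_card, card_chars h.ca.comm',
      smul_eq_mul] at h5
    have hd : (0 : ℝ) < d i := by exact_mod_cast hρ.pos i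
    rcases Nat.eq_zero_or_pos (mult ρ lam i) with h6 | h6
    · rw [h6, mul_zero, add_zero] at h5
      rw [inv_full (ker_of_deg h5)]
      have : (c i : ℝ) = d i := by simp [c, h6, h5]
      rw [this, sq (d i : ℝ), mul_div_assoc, div_self hd.ne', mul_one]
      push_cast
      linarith
    · have h7 : Nat.card A ≤ d i + 1 := by
        have := Nat.le_mul_of_pos_right (Nat.card A - 1) h6
        omega
      have h8 : (Nat.card A : ℝ) - 1 ≤ d i := by
        have : (Nat.card A : ℝ) ≤ d i + 1 := by exact_mod_cast h7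
        linarith
      refine le_add_of_nonneg_of_le (by positivity) ?_
      rw [show (m i : ℝ) * ((c i : ℝ) ^ 2 / d i) = (c i : ℝ) ^ 2 / (d i : ℝ) ^ 2 * (m i * d i) by
        field_simp]
      have h9 : (0 : ℝ) < Nat.card A - 1 := by linarith
      gcongr
      exact h4 i
  · rw [Finset.sum_add_distrib]
    refine add_le_add ?_ le_rfl
    exact_mod_cast h2

theorem qa {v : ℝ} (v0 : 0 ≤ v) (v1 : v ≤ 1) : 0 ≤ v - v ^ 2 := by nlinarith

theorem qb (v : ℝ) : v - v ^ 2 ≤ 1 / 4 := by nlinarith [sq_nonneg (v - 1 / 2)]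

set_option maxHeartbeats 800000 in
theorem E3' [Finite G] [Finite Ω] (h : Hy A Ω 7 j f)
    (hΓ : ∀ (g : G) a b, Γ a b → Γ (g • a) (g • b)) (ω₀ : Ω)
    (hK : ∀ b : Ω, ∃ k ∈ Subgroup.normalClosure (A : Set G), k • ω₀ = b) {x : G} (hx : x ∈ A)
    (x1 : x ≠ 1) : ((Nat.card {b // Γ ω₀ b} : ℤ) - cnt Γ x) ^ 2 * ((Nat.card A : ℤ) - 1) ^ 2 ≤
      ((j : ℤ) * Nat.card A) ^ 3 := by
  classical
  have := Fintype.ofFinite G
  have := Fintype.ofFinite Ω
  have hS := sq_bound7 h ω₀ hK hx x1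
  set k := Nat.card {b // Γ ω₀ b} with hk
  set n : ℝ := (Nat.card G : ℝ) with hn
  set a : ℝ := (Nat.card A : ℝ) with ha
  let M : Ω → Ω → ℝ := fun ω ω' => ∑ g : G, if (g * x * g⁻¹) • ω = ω' then 1 else 0
  have hc : (Fintype.card Ω : ℝ) = j * a := by
    rw [← Nat.card_eq_fintype_card, h.card]
    push_cast
    rfl
  have hc0 : (0 : ℝ) < j * a := by
    rw [← hc]
    exact_mod_cast Fintype.card_pos_iff.2 ⟨ω₀⟩
  have hn0 : 0 < n := by
    rw [hn]
    exact_mod_cast Nat.card_pos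
  have h1 : ∀ ω, ∑ ω', M ω ω' = n := fun ω => by
    simp only [M]
    rw [Finset.sum_comm]
    simp [hn]
  have h2 : ∑ ω, ∑ ω', M ω ω' ^ 2 = ∑ z : G, ∑ g : G,
      (Nat.card (MulAction.fixedBy Ω ((z * x * z⁻¹)⁻¹ * (g * x * g⁻¹))) : ℝ) := by
    have : ∀ ω, ∑ ω', M ω ω' ^ 2 = ∑ z : G, ∑ g : G,
        if ω ∈ MulAction.fixedBy Ω ((z * x * z⁻¹)⁻¹ * (g * x * g⁻¹)) then (1 : ℝ) else 0 := by
      intro ω
      simp only [M, sq, Finset.sum_mul_sum]
      rw [Finset.sum_comm]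
      refine Finset.sum_congr rfl fun z _ => ?_
      rw [Finset.sum_comm]
      refine Finset.sum_congr rfl fun g _ => ?_
      simp only [ite_mul, one_mul, zero_mul, Finset.sum_ite_eq, Finset.mem_univ, if_true,
        MulAction.mem_fixedBy, mul_smul (z * x * z⁻¹)⁻¹, inv_smul_eq_iff]
    simp only [this]
    rw [Finset.sum_comm]
    refine Finset.sum_congr rfl fun z _ => ?_
    rw [Finset.sum_comm]
    refine Finset.sum_congr rfl fun g _ => ?_
    rw [Finset.sum_boole, Nat.card_eq_fintype_card, Fintype.card_subtype]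
  have h3 : ∑ ω, ∑ ω', (if Γ ω ω' then (1 : ℝ) else 0) * M ω ω' = n * cnt Γ x := by
    have : ∀ g : G, (cnt Γ x : ℝ) = ∑ ω, ∑ ω', (if Γ ω ω' then (1 : ℝ) else 0) *
        if (g * x * g⁻¹) • ω = ω' then 1 else 0 := fun g => by
      rw [← cnt_conj hΓ x g, cnt_eq]
      simp only [ite_mul, one_mul, zero_mul]
    have e : n * cnt Γ x = ∑ _g : G, (cnt Γ x : ℝ) := by simp [hn]
    rw [e, Finset.sum_congr rfl fun g _ => this g]
    simp only [M, Finset.mul_sum]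
    symm
    rw [Finset.sum_comm]
    exact Finset.sum_congr rfl fun ω _ => Finset.sum_comm
  have h4 : ∀ ω, ∑ ω', (if Γ ω ω' then (1 : ℝ) else 0) = k := fun ω => by
    obtain ⟨g, -, rfl⟩ := hK ω
    rw [Finset.sum_boole, ← Fintype.card_subtype, ← Nat.card_eq_fintype_card, hk]
    congr 1
    refine (Nat.card_congr ((MulAction.toPerm g).subtypeEquiv fun b => ?_)).symm
    exact ⟨hΓ g _ _, fun e => by simpa using hΓ g⁻¹ _ _ e⟩
  have h5 := Finset.sum_mul_sq_le_sq_mul_sq (Finset.univ : Finset (Ω × Ω))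
    (fun p => (if Γ p.1 p.2 then (1 : ℝ) else 0) - k / (j * a)) (fun p => M p.1 p.2 - n / (j * a))
  have h6 : ∀ p : Prop, ∀ [Decidable p], (if p then (1 : ℝ) else 0) ^ 2 = if p then 1 else 0 :=
    fun p _ => by split_ifs <;> simp
  simp only [h6, Fintype.sum_prod_type, mul_sub, sub_mul, sub_sq, Finset.sum_sub_distrib,
    Finset.sum_add_distrib, ← Finset.sum_mul, ← Finset.mul_sum, h1, h2, h3, h4, Finset.sum_const,
    Finset.card_univ, nsmul_eq_mul, hc] at h5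
  have ha1 : 1 < a := by
    rw [ha]
    exact_mod_cast h.ca.one_lt_card
  have ha0 : 0 < a - 1 := by linarith
  have h8 : ((k : ℝ) - cnt Γ x) ^ 2 * (a - 1) ^ 2 ≤ (j * a) ^ 3 := by
    refine le_of_mul_le_mul_left ?_ (pow_pos hn0 2)
    set S := ∑ z : G, ∑ g : G,
      (Nat.card (MulAction.fixedBy Ω ((z * x * z⁻¹)⁻¹ * (g * x * g⁻¹))) : ℝ)
    rw [Fintype.card_prod, Nat.cast_mul, hc] at h5
    obtain ⟨u, hu⟩ : ∃ u, n = j * a * u := ⟨n / (j * a), (mul_div_cancel₀ n hc0.ne').symm⟩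
    obtain ⟨v, hv⟩ : ∃ v, (k : ℝ) = j * a * v := ⟨k / (j * a), (mul_div_cancel₀ _ hc0.ne').symm⟩
    have e : n / (j * a) = u := by rw [hu, mul_div_cancel_left₀ _ hc0.ne']
    have e' : k / (j * a) = v := by rw [hv, mul_div_cancel_left₀ _ hc0.ne']
    have h9 : (n * cnt Γ x - n * k) ^ 2 ≤ (j * a) ^ 2 * (v - v ^ 2) * (S - n ^ 2) := by
      rw [e, e'] at h5
      rw [hu, hv] at h5 ⊢
      refine le_of_eq_of_le (by ring) (le_of_le_of_eq h5 (by ring))
    have h10 : (S - n ^ 2) * (a - 1) ^ 2 ≤ n ^ 2 * (4 * (j * a)) := by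
      have : n ^ 2 * (1 + 4 / (a - 1) ^ 2 * (j * a)) =
          n ^ 2 + n ^ 2 * (4 * (j * a)) / (a - 1) ^ 2 := by ring
      rw [this] at hS
      rw [← le_div_iff₀ (by positivity)]
      linarith
    have hv0 : 0 ≤ v - v ^ 2 := by
      have k0 : (0 : ℝ) ≤ k := by positivity
      have k1 : (k : ℝ) ≤ j * a := by
        rw [← hc, hk, ← Nat.card_eq_fintype_card]
        exact_mod_cast Nat.card_le_card_of_injective _ Subtype.val_injective
      have v0 : 0 ≤ v := by rw [← e']; positivity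
      have v1 : v ≤ 1 := by rw [← e', div_le_one hc0]; exact k1
      exact qa v0 v1
    have hv1 : v - v ^ 2 ≤ 1 / 4 := qb v
    calc n ^ 2 * (((k : ℝ) - cnt Γ x) ^ 2 * (a - 1) ^ 2)
        = (n * cnt Γ x - n * k) ^ 2 * (a - 1) ^ 2 := by ring
      _ ≤ (j * a) ^ 2 * (v - v ^ 2) * (S - n ^ 2) * (a - 1) ^ 2 := by gcongr
      _ = (j * a) ^ 2 * (v - v ^ 2) * ((S - n ^ 2) * (a - 1) ^ 2) := by ring
      _ ≤ (j * a) ^ 2 * (v - v ^ 2) * (n ^ 2 * (4 * (j * a))) := by gcongr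
      _ ≤ (j * a) ^ 2 * (1 / 4) * (n ^ 2 * (4 * (j * a))) := by gcongr
      _ = n ^ 2 * (j * a) ^ 3 := by ring
  rw [ha] at h8
  exact_mod_cast h8

theorem E3 [Finite G] [Finite Ω] (h : Hy A Ω 7 j f)
    (hΓ : ∀ (g : G) a b, Γ a b → Γ (g • a) (g • b))
    (hN : ∀ z ∈ Subgroup.normalizer (A : Set G), ∀ ω : Ω, ∃ a ∈ A, z • ω = a • ω) (ω₀ : Ω)
    (hs : ∀ a b, Γ a b → a ∈ MulAction.orbit G ω₀ ∧ b ∈ MulAction.orbit G ω₀) {x : G}
    (hx : x ∈ A) (x1 : x ≠ 1) :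
    ((Nat.card {b // Γ ω₀ b} : ℤ) - cnt Γ x) ^ 2 * ((Nat.card A : ℤ) - 1) ^ 2 ≤
      ((j : ℤ) * Nat.card A) ^ 3 := by
  have hfree : ∀ a ∈ A, a ≠ 1 → ∀ ω : MulAction.orbit G ω₀, a • ω ≠ ω :=
    fun a ha a1 ω e => h.free a ha a1 ω (congrArg Subtype.val e)
  obtain ⟨j', hj⟩ : ∃ j', Nat.card (MulAction.orbit G ω₀) = j' * Nat.card A :=
    ⟨_, (Nat.card_congr (MulAction.selfEquivOrbitsQuotientProd (G := A) fun b =>
      eq_bot_iff.2 fun a ha => by
        by_contra a1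
        exact hfree a a.2 (fun e => a1 (Subtype.ext e)) b ha)).trans (Nat.card_prod _ _)⟩
  have hjj : j' ≤ j := by
    refine Nat.le_of_mul_le_mul_right ?_ (Nat.card_pos (α := A))
    rw [← hj, ← h.card]
    exact Nat.card_le_card_of_injective _ Subtype.val_injective
  have h' : Hy A (MulAction.orbit G ω₀) 7 j' f :=
    ⟨h.ca, h.hw, hfree, hj, fun g g1 => le_trans (Nat.card_le_card_of_injective
      (fun ω => ⟨ω.1.1, congrArg Subtype.val ω.2⟩) fun a b e =>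
        Subtype.ext (Subtype.ext (congrArg (fun t : MulAction.fixedBy Ω g => t.1) e))) (h.fix g g1),
      le_trans (by gcongr) h.big, lt_of_le_of_lt (by gcongr) h.big', h.nn⟩
  have := E3' (Γ := fun a b : MulAction.orbit G ω₀ => Γ a b) h' (fun g a b => hΓ g a b)
    ⟨ω₀, MulAction.mem_orbit_self _⟩ (fun b => by
      obtain ⟨_, g, rfl⟩ := b
      have hg : g ∈ Subgroup.normalClosure (A : Set G) ⊔ Subgroup.normalizer (A : Set G) := by
        rw [sup_comm, frat h.ca]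
        trivial
      rw [← SetLike.mem_coe, Subgroup.normal_mul] at hg
      obtain ⟨k, hk, z, hz, rfl⟩ := hg
      obtain ⟨a, ha, e⟩ := hN z hz ω₀
      refine ⟨k * a, mul_mem hk (Subgroup.subset_normalClosure ha), Subtype.ext ?_⟩
      change (k * a) • ω₀ = (k * z) • ω₀
      rw [mul_smul, mul_smul, e]) hx x1
  have e1 : Nat.card {b : MulAction.orbit G ω₀ // Γ ω₀ b} = Nat.card {b // Γ ω₀ b} :=
    Nat.card_congr (Equiv.subtypeSubtypeEquivSubtype fun hb => (hs _ _ hb).2)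
  have e2 : cnt (fun a b : MulAction.orbit G ω₀ => Γ a b) x = cnt Γ x :=
    Nat.card_congr (Equiv.subtypeSubtypeEquivSubtype (q := fun ω => Γ ω (x • ω))
      fun hb => (hs _ _ hb).1)
  rw [e1, e2] at this
  refine this.trans ?_
  gcongr

end Cfsg.Agent.S7
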