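import Mathlib
import Cfsg.Agent.SG.Mat

/-!
The normaliser of a Singer cycle in a given dimension: reduction to the field itself.
-/

set_option autoImplicit false

namespace Cfsg.Agent.S7

open Module Cfsg.Agent.H7 Cfsg.Agent.H3.Ext Cfsg.Agent.SG Matrix

universe u

/-- The Singer case in dimension `n`. -/
def SingerN (n : ℕ) : Prop :=
  ∀ (F K : Type u) [Field F] [Fintype F] [Field K] [Finite K] [Algebra F K],
    finrank F K = n → ∀ X : Subgroup (K ≃ₗ[F] K), X ≤ SLV F K →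
      (∀ g : K ≃ₗ[F] K, Semi K g → g ∈ SLV F K → g ∈ X) → (∃ g ∈ X, ¬ Semi K g) → SLV F K ≤ X

theorem item3 {n : ℕ} (hn : 3 ≤ n) (hS : SingerN.{u} n) {F : Type u} [Field F] [Fintype F]
    (K : Subalgebra F (Matrix (Fin n) (Fin n) F)) (hK : Geo.IsFieldSubalgebra n K) :
    Geo.IsMaximalIn (Geo.specialLinear (Fin n) F)
      (Geo.subalgebraNormalizer K ⊓ Geo.specialLinear (Fin n) F) := by
  have : Nonempty (Fin n) := ⟨⟨0, by omega⟩⟩
  let _ : Field K := (Asch.isField_of_inv hK.comm hK.inv).toField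
  have h := finrank_mul_finrank F K (Fin n → F)
  rw [hK.finrank_eq, finrank_fintype_fun_eq_card, Fintype.card_fin] at h
  have hm : finrank K (Fin n → F) = 1 :=
    Nat.eq_of_mul_eq_mul_left (by omega : 0 < n) (by rw [h, mul_one])
  have : FiniteDimensional K (Fin n → F) := Module.finite_of_finrank_pos (by omega)
  obtain ⟨e⟩ : Nonempty ((Fin n → F) ≃ₗ[K] K) :=
    FiniteDimensional.nonempty_linearEquiv_of_finrank_eq (by rw [hm, finrank_self])
  have hfr := hK.finrank_eq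
  obtain ⟨g₀, hg₀, hg₀'⟩ := exists_SLV_not_semi' (F := F) (K := K) (by omega)
  obtain ⟨g₀, rfl⟩ := (cj (F := F) e).surjective g₀
  obtain ⟨g₀, rfl⟩ := toLE.surjective g₀
  rw [cj_SLV] at hg₀
  rw [cj_semi] at hg₀'
  refine isMaximalIn_of inf_le_right ⟨g₀, (mem_specialLinear_iff g₀).mpr hg₀,
    fun h => hg₀' ((mem_normalizer_iff g₀).mp h.1)⟩ fun X hX hX' g hg hgN k hk => ?_
  obtain ⟨_, ⟨k', hk', rfl⟩, e'⟩ := hS F K hfr
    ((X.map toLE.toMonoidHom).map (cj (F := F) e).toMonoidHom)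
    (by
      rintro _ ⟨_, ⟨a, ha, rfl⟩, rfl⟩
      exact (cj_SLV e _).mpr ((mem_specialLinear_iff a).mp (hX' ha)))
    (fun a ha ha' => by
      obtain ⟨a, rfl⟩ := (cj (F := F) e).surjective a
      obtain ⟨a, rfl⟩ := toLE.surjective a
      exact ⟨_, ⟨a, hX ⟨(mem_normalizer_iff a).mpr ((cj_semi e _).mp ha),
        (mem_specialLinear_iff a).mpr ((cj_SLV e _).mp ha')⟩, rfl⟩, rfl⟩)
    ⟨_, ⟨_, ⟨g, hg, rfl⟩, rfl⟩, fun h => hgN ⟨(mem_normalizer_iff g).mpr ((cj_semi e _).mp h),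
      hX' hg⟩⟩
    ((cj_SLV e _).mpr ((mem_specialLinear_iff k).mp hk))
  exact toLE.injective ((cj (F := F) e).injective e') ▸ hk'

end Cfsg.Agent.S7
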