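import Cfsg.Agent.SG.Ex

/-! Double transitivity from the degrees of the constituents of the permutation character. -/

set_option autoImplicit false

namespace Cfsg.Agent.S7

open Cfsg.Agent.H4.CABasic Cfsg.Agent.H4.Irr Cfsg.Agent.H4.CAChar Cfsg.Agent.H4.AbChar
  Cfsg.Agent.H5.CharTools Cfsg.Agent.SG.Ex

section

variable {G : Type*} [Group G]

theorem sm_int [Finite G] {V : Type*} [AddCommGroup V] [Module ℂ V] [FiniteDimensional ℂ V]
    (ρ : Representation ℂ G V) (g : G) : IsIntegral ℤ (ρ.character g) := by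
  rw [Representation.character,
    Module.End.trace_eq_sum_roots_charpoly_of_splits (IsAlgClosed.splits _)]
  refine IsIntegral.multiset_sum fun μ hμ => ?_
  have h1 := (Module.End.hasEigenvalue_iff_isRoot_charpoly _ _).2 (Polynomial.isRoot_of_mem_roots hμ)
  obtain ⟨v, hv⟩ := h1.exists_hasEigenvector
  have h2 := hv.pow_apply (orderOf g)
  rw [← map_pow, pow_orderOf_eq_one, map_one, Module.End.one_apply] at h2
  have h3 : μ ^ orderOf g = 1 := by
    by_contra h
    have : (μ ^ orderOf g - 1) • v = 0 := by rw [sub_smul, ← h2, one_smul, sub_self]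
    exact hv.2 ((smul_eq_zero.1 this).resolve_left (sub_ne_zero.2 h))
  exact IsIntegral.of_pow (orderOf_pos g) (h3 ▸ isIntegral_one)

variable [Fintype G] {n : ℕ} {d : Fin n → ℕ} {ρ : ∀ i, Representation ℂ G (Fin (d i) → ℂ)}

theorem sm_deg (h : IsIrrSys ρ) (i : Fin n) : d i ∣ Nat.card G := by
  classical
  choose c hc1 hc2 using fun K : ConjClasses G => central_integral h i
    (Finset.univ.filter fun x => ConjClasses.mk x = K) (by
      intro g x hx
      simp only [Finset.mem_filter, Finset.mem_univ, true_and] at hx ⊢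
      rw [← hx, ConjClasses.mk_eq_mk_iff_isConj]
      exact (isConj_iff.2 ⟨g, rfl⟩).symm)
  have h1 := h.orth1 i i
  rw [inv_mul_eq_iff_eq_mul₀ (card_ne_zero G), if_pos rfl, mul_one,
    ← Finset.sum_fiberwise Finset.univ (fun x => ConjClasses.mk x)] at h1
  have h2 : ∀ K : ConjClasses G, ∑ x ∈ Finset.univ.filter (fun x => ConjClasses.mk x = K),
      (ρ i).character x * (ρ i).character x⁻¹ = c K * (ρ i).character K.out⁻¹ * d i := by
    intro K
    rw [mul_right_comm, hc2, Finset.sum_mul]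
    refine Finset.sum_congr rfl fun x hx => ?_
    have h3 : ConjClasses.mk x = ConjClasses.mk K.out :=
      (Finset.mem_filter.1 hx).2.trans (Quotient.out_eq K).symm
    obtain ⟨g, hg⟩ := isConj_iff.1 (ConjClasses.mk_eq_mk_iff_isConj.1 h3)
    rw [← hg, ← Representation.char_conj (ρ i) x⁻¹ g]
    congr 2
    group
  simp only [h2, ← Finset.sum_mul] at h1
  have h4 : (d i : ℤ) ∣ (Nat.card G : ℤ) := int_dvd_of_integral
    (IsIntegral.sum _ fun K _ => (hc1 K).mul (sm_int _ _))
    (by exact_mod_cast (h.pos i).ne') (by exact_mod_cast h1)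
  exact_mod_cast h4

end

variable {G Ω : Type*} [Group G] [MulAction G Ω] {A : Subgroup G} {w j f : ℕ}

theorem sm_two [Fintype G] [Fintype Ω]
    (h : ip (permRep ℂ G Ω).character (permRep ℂ G Ω).character = 2) (a b c e : Ω) (hab : a ≠ b)
    (hce : c ≠ e) : ∃ g : G, g • a = c ∧ g • b = e := by
  classical
  have : Fintype (MulAction.orbitRel.Quotient G (Ω × Ω)) := Fintype.ofFinite _
  have h1 := MulAction.sum_card_fixedBy_eq_card_orbits_mul_card_group G (Ω × Ω)
  have h2 : ∀ g : G, Fintype.card (MulAction.fixedBy (Ω × Ω) g) =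
      Nat.card (MulAction.fixedBy Ω g) * Nat.card (MulAction.fixedBy Ω g⁻¹) := fun g => by
    rw [MulAction.fixedBy_inv, ← Nat.card_prod, ← Nat.card_eq_fintype_card]
    exact Nat.card_congr ⟨fun p => (⟨p.1.1, congrArg Prod.fst p.2⟩, ⟨p.1.2, congrArg Prod.snd p.2⟩),
      fun p => ⟨(p.1, p.2), Prod.ext p.1.2 p.2.2⟩, fun _ => rfl, fun _ => rfl⟩
  simp only [h2] at h1
  rw [H1.PermChar.character_permRep, ip, inv_mul_eq_iff_eq_mul₀ (card_ne_zero G)] at h
  have h3 : ∑ g : G, Nat.card (MulAction.fixedBy Ω g) * Nat.card (MulAction.fixedBy Ω g⁻¹) =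
      Nat.card G * 2 := by exact_mod_cast h
  rw [h3, Nat.card_eq_fintype_card, mul_comm] at h1
  have h4 := Nat.eq_of_mul_eq_mul_right Fintype.card_pos h1
  by_contra hn
  have h5 : 2 < Fintype.card (MulAction.orbitRel.Quotient G (Ω × Ω)) := by
    rw [Fintype.two_lt_card_iff]
    refine ⟨Quotient.mk'' (a, a), Quotient.mk'' (a, b), Quotient.mk'' (c, e), fun e => ?_,
      fun e => ?_, fun e => ?_⟩
    · obtain ⟨g, hg⟩ := Quotient.exact' e
      exact hab (MulAction.injective g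
        ((congrArg Prod.fst hg).trans (congrArg Prod.snd hg).symm))
    · obtain ⟨g, hg⟩ := Quotient.exact' e
      exact hce (MulAction.injective g
        ((congrArg Prod.fst hg).trans (congrArg Prod.snd hg).symm))
    · obtain ⟨g, hg⟩ := Quotient.exact' e.symm
      exact hn ⟨g, congrArg Prod.fst hg, congrArg Prod.snd hg⟩
  rw [← h4] at h5
  exact lt_irrefl _ h5

theorem sm [Finite G] [Finite Ω] (h : Hy A Ω w j f) (hw : w ≤ 7)
    (hd : ∀ u s D : ℕ, u ≤ j → s = 1 ∨ s = 2 → D + s = u * Nat.card A → D ∣ Nat.card G →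
      u = j ∧ s = 1) (a b c e : Ω) (hab : a ≠ b) (hce : c ≠ e) :
    ∃ g : G, g • a = c ∧ g • b = e := by
  classical
  have := Fintype.ofFinite G
  have := Fintype.ofFinite Ω
  obtain ⟨N, d, ρ, hρ⟩ := exists_irrSys G
  obtain ⟨lam, hl⟩ := exists_lam h.ca
  have := finite_chars h.ca.comm'
  have := Fintype.ofFinite (A →* ℂˣ)
  obtain ⟨m, hm1, hm⟩ := exists_m hρ (permRep ℂ G Ω)
  have hne : ∀ i, m i ≠ 0 → ∀ μ : A →* ℂˣ, μ ≠ 1 → mult ρ μ i = mult ρ lam i := fun i hi =>
    h.const hρ (by rw [hm1]; exact_mod_cast hi) hl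
  obtain ⟨i0, h0⟩ := exists_trivial hρ
  have m0 : m i0 ≠ 0 := fun e => by
    have h1 := hm1 i0
    rw [e, h0, ip, H1.PermChar.character_permRep, Nat.cast_zero, mul_eq_zero] at h1
    refine h1.elim (inv_ne_zero (card_ne_zero G)) fun h1 => ?_
    simp only [mul_one] at h1
    have h2 : ∑ g : G, Nat.card (MulAction.fixedBy Ω g) = 0 := by exact_mod_cast h1
    have h3 := Finset.sum_eq_zero_iff.1 h2 1 (Finset.mem_univ _)
    have : Nonempty (MulAction.fixedBy Ω (1 : G)) := ⟨⟨a, one_smul _ _⟩⟩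
    exact Nat.card_pos.ne' h3
  have d0 : d i0 = 1 := by
    have := hρ.char_one i0
    simp only [h0] at this
    exact_mod_cast this.symm
  have a0 : mult ρ (1 : A →* ℂˣ) i0 = 1 := by rw [mult_trivial h0, if_pos rfl]
  have b0 : mult ρ lam i0 = 0 := by rw [mult_trivial h0, if_neg hl]
  obtain ⟨i, hi, hlt⟩ : ∃ i, m i ≠ 0 ∧ mult ρ (1 : A →* ℂˣ) i < mult ρ lam i := by
    by_contra! hc
    refine (Finset.sum_lt_sum (fun i _ => ?_) ⟨i0, Finset.mem_univ _, ?_⟩).ne
      (res_perm h.free hm lam 1)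
    · by_cases hi : m i = 0
      · simp [hi]
      · exact Nat.mul_le_mul_left _ (hc i hi)
    · rw [a0, b0]
      omega
  have hii : i ≠ i0 := fun e => by rw [e, a0, b0] at hlt; omega
  have h3 := sum_sq_one_sub hρ h.ca hl
  rw [h.hw] at h3
  have h4 : ((mult ρ (1 : A →* ℂˣ) i : ℤ) - mult ρ lam i) ^ 2 +
      ((mult ρ (1 : A →* ℂˣ) i0 : ℤ) - mult ρ lam i0) ^ 2 ≤ w + 1 := by
    rw [← h3, ← Finset.sum_pair (f := fun i => ((mult ρ (1 : A →* ℂˣ) i : ℤ) - mult ρ lam i) ^ 2) hii]
    exact Finset.sum_le_sum_of_subset_of_nonneg (Finset.subset_univ _) fun _ _ _ => sq_nonneg _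
  rw [a0, b0] at h4
  have hdeg : ∑ i, m i * d i = j * Nat.card A := by
    have := hm 1
    simp only [hρ.char_one, Representation.char_one, Module.finrank_fintype_fun_eq_card] at this
    rw [← h.card, Nat.card_eq_fintype_card]
    exact_mod_cast this.symm
  have ha := h.ca.one_lt_card
  have h5 := deg_eq_sum hρ h.ca i
  rw [← Finset.add_sum_erase _ _ (Finset.mem_univ 1), Finset.sum_congr rfl fun μ hμ =>
    hne i hi μ (Finset.mem_erase.1 hμ).1, Finset.sum_const, Finset.card_erase_of_mem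
    (Finset.mem_univ _), Finset.card_univ, ← Nat.card_eq_fintype_card, card_chars h.ca.comm',
    smul_eq_mul] at h5
  obtain ⟨s, hs⟩ : ∃ s, mult ρ lam i = mult ρ (1 : A →* ℂˣ) i + s := ⟨_, (Nat.add_sub_cancel' hlt.le).symm⟩
  have hs2 : s = 1 ∨ s = 2 := by
    rw [hs] at h4 hlt
    push_cast at h4
    have h6 : (w : ℤ) ≤ 7 := by exact_mod_cast hw
    have h7 : (s : ℤ) < 3 := by nlinarith
    omega
  obtain ⟨t, ht⟩ : ∃ t, Nat.card A = t + 1 := ⟨_, (Nat.sub_add_cancel ha.le).symm⟩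
  have h6 : d i + s = mult ρ lam i * Nat.card A := by
    rw [h5, ht, Nat.add_sub_cancel, hs]
    ring
  have h7 := Finset.add_sum_erase _ (fun i => m i * d i) (Finset.mem_univ i)
  have h8 := Finset.add_sum_erase _ (fun i => m i * d i)
    (Finset.mem_erase.2 ⟨hii.symm, Finset.mem_univ _⟩)
  simp only [hdeg, d0, mul_one] at h7 h8
  have h9 : d i ≤ m i * d i := Nat.le_mul_of_pos_left _ (Nat.pos_of_ne_zero hi)
  have hu : mult ρ lam i ≤ j := by
    by_contra! hc
    have := Nat.mul_le_mul_right (Nat.card A) (Nat.succ_le_of_lt hc)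
    rw [Nat.succ_mul] at this
    omega
  obtain ⟨e1, e2⟩ := hd _ s _ hu hs2 h6 (sm_deg hρ i)
  rw [e1, e2] at h6
  have f1 : m i * d i = d i := by omega
  have f2 : m i = 1 := Nat.eq_of_mul_eq_mul_right (hρ.pos i) (by rw [f1, one_mul])
  have f3 : m i0 = 1 := by omega
  have f4 : ∑ x ∈ (Finset.univ.erase i).erase i0, m x * d x = 0 := by omega
  refine sm_two ?_ a b c e hab hce
  rw [hρ.parseval _ (fun g x => (permRep ℂ G Ω).char_conj g x)]
  simp only [hm1]
  rw [← Finset.add_sum_erase _ _ (Finset.mem_univ i), ← Finset.add_sum_erase _ _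
    (Finset.mem_erase.2 ⟨hii.symm, Finset.mem_univ _⟩), f2, f3, Finset.sum_eq_zero]
  · norm_num
  · intro x hx
    have := (mul_eq_zero.1 (Finset.sum_eq_zero_iff.1 f4 x hx)).resolve_right (hρ.pos x).ne'
    simp [this]

end Cfsg.Agent.S7
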