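import Mathlib
import Cfsg.Agent.SG.T2
import Cfsg.Agent.S7.Sm

/-!
An overgroup of the normaliser of a Singer cycle in dimension seven is two-transitive on points.
-/

set_option autoImplicit false

namespace Cfsg.Agent.S7

open Module Cfsg.Agent.H7 Cfsg.Agent.H3.Ext Cfsg.Agent.SG
open scoped LinearAlgebra.Projectivization

section

variable {F K : Type*} [Field F] [Field K] [Algebra F K] [Fintype F] [Finite K]
  {X : Subgroup (K ≃ₗ[F] K)}

theorem num7 {p j c f : ℕ} (hp : 1 ≤ p) (hj : j = 1 ∨ j = 7 ∧ 7 ∣ p)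
    (hc : j * c * p + 1 = (p + 1) ^ 7) (hf : f * p ≤ (p + 1) ^ (7 - 1) + (p + 1) ^ 2) :
    (7 + 2 * j + 4) * 7 + 1 ≤ c ∧ j + f + 1 < c := by
  have h4 : (p + 1) ^ 4 ≤ (p + 1) ^ 6 := Nat.pow_le_pow_right (by omega) (by omega)
  have e : (p + 1) ^ 7 = (p + 1) * (p + 1) ^ 6 := by ring
  rcases hj with rfl | ⟨rfl, hd⟩
  · constructor
    · refine Nat.le_of_mul_le_mul_right ?_ (by omega : 0 < p)
      obtain ⟨r, rfl⟩ : ∃ r, p = r + 1 := ⟨p - 1, by omega⟩
      have : 92 * (r + 1) + 1 ≤ (r + 1 + 1) ^ 7 := by ring_nf; omega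
      rw [one_mul] at hc
      omega
    · refine Nat.lt_of_mul_lt_mul_right (a := p) ?_
      rw [e] at hc
      have : (p + 1) ^ 2 + 2 * p + 1 < (p + 1) ^ 4 := by
        nlinarith [Nat.zero_le (p ^ 3), Nat.zero_le (p ^ 4)]
      norm_num at hf
      generalize (p + 1) ^ 6 = Q at *
      nlinarith
  · obtain ⟨r, rfl⟩ : ∃ r, p = r + 7 := ⟨p - 7, by have := Nat.le_of_dvd (by omega) hd; omega⟩
    constructor
    · refine Nat.le_of_mul_le_mul_right ?_ (by omega : 0 < 7 * (r + 7))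
      have : 176 * (7 * (r + 7)) + 1 ≤ (r + 7 + 1) ^ 7 := by ring_nf; omega
      nlinarith
    · refine Nat.lt_of_mul_lt_mul_right (a := 7 * (r + 7)) ?_
      have : 56 * (r + 7) + 7 * ((r + 7 + 1) ^ (7 - 1) + (r + 7 + 1) ^ 2) + 1 < (r + 7 + 1) ^ 7 := by
        norm_num
        ring_nf
        omega
      nlinarith

theorem data7 (h7 : finrank F K = 7)
    (hX : ∀ g : K ≃ₗ[F] K, Semi K g → g ∈ SLV F K → g ∈ X) :
    ∃ j f : ℕ, (j = 1 ∨ j = 7 ∧ 7 ∣ Fintype.card F - 1) ∧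
      Nat.card (ℙ F K) = j * Nat.card (AX X) ∧
      j * Nat.card (AX X) * (Fintype.card F - 1) + 1 = Fintype.card F ^ 7 ∧
      (∀ g : GX X, g ≠ 1 → Nat.card (MulAction.fixedBy (ℙ F K) g) ≤ f) ∧
      (7 + 2 * j + 4) * 7 + 1 ≤ Nat.card (AX X) ∧ j + f + 1 < Nat.card (AX X) := by
  obtain ⟨j, hj, hc⟩ := card_AX (by rw [h7]; norm_num) hX
  have hq : 1 < Nat.card F := Finite.one_lt_card
  obtain ⟨p, hp⟩ : ∃ p, Nat.card F = p + 1 := ⟨Nat.card F - 1, by omega⟩
  have h1 := Projectivization.card' F K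
  rw [Module.natCard_eq_pow_finrank (K := F), hc, hp, add_tsub_cancel_right, h7] at h1
  rw [h7] at hj
  refine ⟨j, ((p + 1) ^ (7 - 1) + (p + 1) ^ 2) / p, hj, hc, ?_, ?_,
    num7 (by omega) ?_ h1.symm (Nat.div_mul_le_self _ _)⟩
  · rw [← Nat.card_eq_fintype_card, hp, add_tsub_cancel_right, h1]
  · rintro ⟨_, g, hg, rfl⟩ h
    have := fix_le (g := g) fun e => h (Subtype.ext e)
    rw [hp, add_tsub_cancel_right, h7] at this
    exact (Nat.le_div_iff_mul_le (by omega)).mpr this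
  · rwa [← Nat.card_eq_fintype_card, hp, add_tsub_cancel_right] at hj

/-- The finite check. -/
def chk (t : ℕ) : Bool :=
  let q := 7 * t + 8
  let c := (q ^ 7 - 1) / (7 * (7 * t + 7))
  let g := (q ^ 7 - 1) * (q ^ 7 - q) * (q ^ 7 - q ^ 2) * (q ^ 7 - q ^ 3) * (q ^ 7 - q ^ 4) *
    (q ^ 7 - q ^ 5) * (q ^ 7 - q ^ 6)
  (List.range 8).all fun u => (u == 0 || u == 7 || g % (u * c - 1) != 0) &&
    (u == 0 || g % (u * c - 2) != 0)

theorem chk_all : (List.range 1960).all chk = true := by decide +kernel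

theorem card_GX (h7 : finrank F K = 7) : Nat.card (GX X) ∣
    ∏ i : Fin 7, (Fintype.card F ^ 7 - Fintype.card F ^ (i : ℕ)) := by
  classical
  have : Module.Finite F K := Module.finite_of_finrank_pos (by omega)
  rw [← Matrix.card_GL_field, Nat.card_congr ((Matrix.GeneralLinearGroup.toLin'
    (Module.finBasisOfFinrankEq F K h7)).trans
      (LinearMap.GeneralLinearGroup.generalLinearEquiv F K)).toEquiv]
  exact (Subgroup.card_map_dvd _ _).trans (Subgroup.card_subgroup_dvd_card X)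

theorem twoL (h7 : finrank F K = 7) (hL : 13700 ≤ Fintype.card F)
    (hc : Nat.card (ℙ F K) = finrank F K * Nat.card (AX X))
    (E1 : ∀ Γ : ℙ F K → ℙ F K → Prop, (∀ (g : GX X) x y, Γ x y → Γ (g • x) (g • y)) →
      ∀ a ∈ AX X, a ≠ 1 → ∀ b ∈ AX X, b ≠ 1 →
        Nat.card {x // Γ x (a • x)} = Nat.card {x // Γ x (b • x)})
    (E2 : ∀ x0 : ℙ F K, ∀ a ∈ AX X, a ≠ 1 →
      ((Nat.card {y // Orb X x0 (a • x0) x0 y} : ℤ) -
        Nat.card {x // Orb X x0 (a • x0) x (a • x)}) ^ 2 ≤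
          4 * (finrank F K : ℤ) ^ 4 * Nat.card {y // Orb X x0 (a • x0) x0 y}) :
    ∀ x y x' y' : ℙ F K, x ≠ y → x' ≠ y' → ∃ g : GX X, g • x = x' ∧ g • y = y' := by
  classical
  have := Fintype.ofFinite (ℙ F K)
  obtain ⟨m, hm2, hm⟩ : ∃ m, m = 2 ∧ finrank F K = 2 * m + 3 := ⟨2, rfl, h7⟩
  have hq : finrank F K < Fintype.card F := by omega
  have h13 : 7 ≤ finrank F K := h7.ge
  have hbig : 32 * finrank F K ^ 8 * Fintype.card F ^ 2 < Fintype.card F ^ (2 * m) := by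
    rw [h7, hm2, show Fintype.card F ^ (2 * 2) = Fintype.card F ^ 2 * Fintype.card F ^ 2 by ring]
    refine Nat.mul_lt_mul_of_pos_right ?_ (by positivity)
    exact lt_of_lt_of_le (by norm_num) (Nat.pow_le_pow_left hL 2)
  obtain ⟨R, hR, hR2⟩ := TwoA.geom (Fintype.card F) m
  rw [← Nat.card_eq_fintype_card, ← Projectivization.card_of_finrank F K hm,
    Nat.card_eq_fintype_card (α := F)] at hR
  set n := finrank F K
  set q := Fintype.card F with hqd
  set c := Nat.card (AX X) with hcd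
  have hbig2 := hbig.trans_le hR2
  have hc0 : 0 < c := Nat.card_pos
  obtain ⟨a, ha, ha1⟩ : ∃ a ∈ AX X, a ≠ 1 := by
    refine (AX X).bot_or_exists_ne_one.resolve_left fun h => ?_
    rw [h, Subgroup.card_bot] at hcd
    rw [hcd, mul_one, hR] at hc
    have : 1 ≤ R := by omega
    nlinarith
  let x0 : ℙ F K := Projectivization.mk F 1 one_ne_zero
  let Γ := Orb X x0 (a • x0)
  have hG : ∀ (g : GX X) x y, Γ x y → Γ (g • x) (g • y) := fun g x y ⟨h, h1, h2⟩ =>
    ⟨g * h, by rw [mul_smul, h1], by rw [mul_smul, h2]⟩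
  have hne : ∀ u, ¬ Γ u u := fun u ⟨h, h1, h2⟩ =>
    ha1 (AX_semireg ha (MulAction.injective h (h2.trans h1.symm)))
  let O : ℙ F K → Prop := fun x => ∃ g : GX X, g • x0 = x
  obtain ⟨j, hj⟩ : c ∣ Nat.card {x // O x} := TwoA.dvd_free AX_free O fun b x ⟨g, hg⟩ =>
    ⟨b * g, by rw [mul_smul, hg]; rfl⟩
  obtain ⟨e, he⟩ : c ∣ Nat.card {x // Γ x (a • x)} := dvd_cnt hG ha
  set k := Nat.card {y // Γ x0 y} with hk
  have hN : Nat.card {p : ℙ F K × ℙ F K // Γ p.1 p.2} = c * j * k := by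
    rw [TwoA.card_prod_sub, TwoA.sum_ite_card O _ k, hj]
    · rintro x ⟨g, rfl⟩
      exact (TwoA.card_inv g _ _ (fun y hy => hG g _ _ hy) fun y hy => by
        simpa only [inv_smul_smul] using hG g⁻¹ _ _ hy).symm
    · intro x hx
      have : IsEmpty {y // Γ x y} := ⟨fun ⟨y, g, h, _⟩ => hx ⟨g, h⟩⟩
      exact Nat.card_of_isEmpty
  obtain ⟨M, hM⟩ := dvd_orb hq hc E1 ha ha1 hG hne
  rw [hN, hR, Nat.add_sub_cancel, Nat.card_eq_fintype_card (α := F), ← hqd, ← hcd] at hM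
  have hjk : j * k = R * M := by
    apply Nat.eq_of_mul_eq_mul_left (show 0 < c * (q * (q + 1)) by
      have : 0 < q := by omega
      positivity)
    linear_combination hM
  have he1 : 1 ≤ e := by
    have : 0 < Nat.card {x // Γ x (a • x)} :=
      Nat.card_pos_iff.mpr ⟨⟨⟨x0, 1, one_smul _ _, one_smul _ _⟩⟩, inferInstance⟩
    rw [he] at this
    exact Nat.pos_of_mul_pos_left this
  have hej : e ≤ j := by
    have : Nat.card {x // Γ x (a • x)} ≤ Nat.card {x // O x} :=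
      Nat.card_le_card_of_injective (fun x => ⟨x.1, x.2.choose, x.2.choose_spec.1⟩)
        fun x y h => Subtype.ext (Subtype.ext_iff.mp h :)
    rw [he, hj] at this
    exact Nat.le_of_mul_le_mul_left this hc0
  have hjn : j ≤ n := by
    have : Nat.card {x // O x} ≤ Nat.card (ℙ F K) := Finite.card_subtype_le _
    rw [hj, hc, mul_comm n] at this
    exact Nat.le_of_mul_le_mul_left this hc0
  have hkP : k ≤ n * c := hc ▸ Finite.card_subtype_le _
  have hE := E2 x0 a ha ha1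
  change ((k : ℤ) - Nat.card {x // Γ x (a • x)}) ^ 2 ≤ 4 * (n : ℤ) ^ 4 * k at hE
  rw [he, mul_comm c e, Nat.cast_mul] at hE
  obtain ⟨h1, h2⟩ := TwoA.arith (n := n) (j := j) (e := e) (k := k) (c := c) (R := R) (q := q)
    (M := M) (by exact_mod_cast hc.symm.trans hR) (by exact_mod_cast hjk) (by exact_mod_cast he1)
    (by exact_mod_cast hej) (by exact_mod_cast hjn) (by exact_mod_cast hkP)
    (by have : 1 < q := Fintype.one_lt_card; exact_mod_cast this) hE (by exact_mod_cast hbig2)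
  have h3 : j = n := by
    have : e = n := by exact_mod_cast h1
    omega
  have h4 : k + 1 = Nat.card (ℙ F K) := by rw [hc]; exact_mod_cast h2
  have hO : ∀ x, O x := by
    rw [h3, mul_comm, ← hc] at hj
    have h5 : ({x | O x} : Set (ℙ F K)) = Set.univ :=
      Set.eq_of_subset_of_ncard_le (Set.subset_univ _) (by rw [Set.ncard_univ]; exact hj.ge)
    exact fun x => (Set.eq_univ_iff_forall.mp h5) x
  have hall : ∀ y, y ≠ x0 → Γ x0 y := by
    have h5 : ({y | Γ x0 y} : Set (ℙ F K)) = {x0}ᶜ := by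
      refine Set.eq_of_subset_of_ncard_le (fun y hy e => hne x0 ?_) ?_
      · rw [Set.mem_singleton_iff.mp e] at hy; exact hy
      · have h6 := Set.ncard_add_ncard_compl ({x0} : Set (ℙ F K))
        rw [Set.ncard_singleton] at h6
        change _ ≤ k
        omega
    intro y hy
    have : y ∈ ({x0}ᶜ : Set (ℙ F K)) := hy
    rw [← h5] at this
    exact this
  have hΓ : ∀ x y, x ≠ y → Γ x y := fun x y hxy => by
    obtain ⟨g, rfl⟩ := hO x
    have := hG g _ _ (hall (g⁻¹ • y) fun e => hxy (by rw [← e, smul_inv_smul]))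
    rwa [smul_inv_smul] at this
  intro x y x' y' h h'
  obtain ⟨g, g1, g2⟩ := hΓ x y h
  obtain ⟨g', g1', g2'⟩ := hΓ x' y' h'
  exact ⟨g' * g⁻¹, by rw [mul_smul, ← g1, inv_smul_smul, g1'],
    by rw [mul_smul, ← g2, inv_smul_smul, g2']⟩

theorem t2 (h7 : finrank F K = 7)
    (hS : X ≤ SLV F K) (hX : ∀ g : K ≃ₗ[F] K, Semi K g → g ∈ SLV F K → g ∈ X)
    (hg : ∃ g ∈ X, ¬ Semi K g) : H8.T2tv.T2 X := by
  obtain ⟨j, f, hj, hc, hq, hf, b1, b2⟩ := data7 h7 hX
  have hn : (finrank F K).Prime := by rw [h7]; norm_num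
  have h3 : 3 ≤ finrank F K := by omega
  have hy : Ex.Hy (AX X) (ℙ F K) 7 j f :=
    ⟨isCA_AX hn h3 hS hX, (relIndex_AX hn h3 hS hX).trans h7,
      fun a ha ha1 ω e => ha1 (AX_semireg ha e), hc, hf, b1, b2, not_normal_AX hn h3 hX hg⟩
  refine t2_of ?_
  rcases hj with rfl | ⟨rfl, hd⟩
  · exact fun x y x' y' h h' => Ex.two hy x y x' y' h h'
  by_cases hL : 13700 ≤ Fintype.card F
  · have hΓ : ∀ (x0 y0 : ℙ F K) (g : GX X) x y, Orb X x0 y0 x y → Orb X x0 y0 (g • x) (g • y) :=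
      fun x0 y0 g x y ⟨k, h1, h2⟩ => ⟨g * k, by rw [mul_smul, h1], by rw [mul_smul, h2]⟩
    refine twoL h7 hL (by rw [h7]; exact hc)
      (fun Γ hΓ a ha ha1 b hb hb1 => Ex.E1 hy hΓ ha ha1 hb hb1) fun x0 a ha ha1 => ?_
    have := Ex.E2 hy (hΓ x0 (a • x0)) (norm_orbit hn h3 hS hX) x0
      (fun x y ⟨k, h1, h2⟩ => ⟨⟨k, h1⟩, ⟨k * a, by simp only [mul_smul, h2]⟩⟩) ha ha1
    refine this.trans (mul_le_mul_of_nonneg_right ?_ (by positivity))
    rw [h7]
    norm_num
  · refine fun x y x' y' h h' => sm hy le_rfl (fun u s D hu hs hD hdv => ?_) x y x' y' h h'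
    have h1 := hdv.trans (card_GX h7)
    have hq1 : 1 < Fintype.card F := Fintype.one_lt_card
    obtain ⟨t, ht⟩ : ∃ t, Fintype.card F = 7 * t + 8 := ⟨(Fintype.card F - 8) / 7, by omega⟩
    have h2 := List.all_eq_true.1 chk_all t (List.mem_range.2 (by omega))
    have h4 : Nat.card (AX X) = ((7 * t + 8) ^ 7 - 1) / (7 * (7 * t + 7)) := by
      rw [ht, show 7 * t + 8 - 1 = 7 * t + 7 by omega] at hq
      rw [← hq, Nat.add_sub_cancel, mul_right_comm, Nat.mul_div_cancel_left _ (by omega)]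
    have h5 := List.all_eq_true.1 h2 u (List.mem_range.2 (by omega))
    rw [Fin.prod_univ_seven, ht] at h1
    simp only [Fin.val_zero, pow_zero, Fin.val_one, pow_one] at h1
    have hu0 : u ≠ 0 := by rintro rfl; omega
    simp only [← h4, Bool.and_eq_true, Bool.or_eq_true, beq_iff_eq, bne_iff_ne, hu0,
      false_or] at h5
    rcases hs with rfl | rfl
    · rw [← hD, Nat.add_sub_cancel] at h5
      exact ⟨h5.1.resolve_right fun h => h (Nat.mod_eq_zero_of_dvd h1), rfl⟩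
    · rw [← hD, Nat.add_sub_cancel] at h5
      exact absurd (Nat.mod_eq_zero_of_dvd h1) h5.2

end

open Submodule Cfsg.Agent.Sg

variable {F G K : Type*} [Field F] [Fintype F] [Group G] [Field K] [Fintype K] [Algebra F K]

theorem pgT {σ : Representation F G K} {n : ℕ} (hn : finrank F K = n) (h7 : n = 7)
    (hsc : Sc σ) (hS : Sing σ (LinearEquiv.refl F K))
    (hφ : ∃ g, ∀ v, σ g v = v ^ Fintype.card F)
    (hdet : ∀ g, ∃ a : F, LinearMap.det (σ g) = a ^ n) : NormK σ ∨ T2 σ := by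
  subst hn
  have hp : (finrank F K).Prime := by rw [h7]; norm_num
  by_cases hg : ∃ g ∈ pgX σ, ¬ Semi K g
  · right
    have h := S7.t2 (X := pgX σ) h7 (fun _ h => h.1) (fun g hg hs => ⟨hs, ?_⟩) hg
    · intro x y x' y' h1 h2
      obtain ⟨g, ⟨-, k, hk⟩, a, b, ha, hb⟩ := h x y x' y' h1.1 h1.2 h2.1 h2.2
      have ha0 : a ≠ 0 := fun e => h1.1 (by simpa [e] using ha)
      obtain ⟨s, hs⟩ := hsc a⁻¹ (inv_ne_zero ha0)
      refine ⟨s * k, by simp [hk, hs, ha, ha0], ?_⟩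
      simp only [map_mul, Module.End.mul_apply, hk, hs, hb]
      exact smul_mem _ _ (smul_mem _ _ (mem_span_singleton_self _))
    · obtain ⟨τ, hτ⟩ := semi_iff.mp hg
      have h1 : g 1 ≠ 0 := by simp
      have h2 : Algebra.norm F (g 1) = 1 := by
        have e : g = mulE F K (Units.mk0 _ h1) * τ.toLinearEquiv := by ext x; rw [hτ x]; rfl
        have := mem_SLV.mp hs
        rw [e, det_algEquiv_mul, det_algEquiv (hp.odd_of_ne_two (by omega)), mul_one] at this
        exact this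
      obtain ⟨s, hs'⟩ := hS _ h2
      obtain ⟨φ, hφ⟩ := hφ
      obtain ⟨i, hi⟩ := (FiniteField.bijective_frobeniusAlgEquivOfAlgebraic_pow F K).2 τ
      refine ⟨s * φ ^ (i : ℕ), fun v => ?_⟩
      have h4 : ∀ (i : ℕ) v, σ (φ ^ i) v =
          (FiniteField.frobeniusAlgEquivOfAlgebraic F K ^ i) v := fun i => by
        induction i with
        | zero => simp
        | succ i ih => intro v; rw [pow_succ', pow_succ', map_mul, Module.End.mul_apply, ih, hφ]; rfl
      rw [hτ v, map_mul, Module.End.mul_apply, h4, ← hi]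
      exact hs' _
  · left
    push Not at hg
    intro g k
    obtain ⟨a, ha⟩ := hdet g
    let u : K ≃ₗ[F] K := LinearEquiv.ofLinear (σ g) (σ g⁻¹)
      (by rw [← Module.End.mul_eq_comp, ← map_mul]; simp; rfl)
      (by rw [← Module.End.mul_eq_comp, ← map_mul]; simp; rfl)
    have ha0 : a ≠ 0 := fun e => (LinearEquiv.isUnit_det' u).ne_zero (by
      rw [e, zero_pow hp.ne_zero] at ha; exact ha)
    obtain ⟨s, hs⟩ := hsc a⁻¹ (inv_ne_zero ha0)
    let w : K ≃ₗ[F] K := u.trans (LinearEquiv.smulOfNeZero F K a⁻¹ (inv_ne_zero ha0))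
    have hw : ∀ v, w v = a⁻¹ • σ g v := fun v => rfl
    obtain ⟨m, hm⟩ := hg w ⟨by
      rw [mem_SLV, show (w : K →ₗ[F] K) = a⁻¹ • σ g from LinearMap.ext hw, LinearMap.det_smul, ha,
        ← mul_pow, inv_mul_cancel₀ ha0, one_pow], s * g, fun v => by simp [hw, hs]⟩ k
    refine ⟨m, fun v => smul_right_injective K (inv_ne_zero ha0) ?_⟩
    have := hm v
    simpa only [hw, smul_eq_mul, mul_smul_comm] using this

end Cfsg.Agent.S7
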