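import Cfsg.Agent.S7.Main
import Cfsg.Agent.S7.T2
import Cfsg.Agent.S7.Mat

set_option autoImplicit false

namespace Cfsg.Agent.S7

universe u

theorem singer7 : SingerN.{u} 7 := by
  intro F K _ _ _ _ _ h7 X hS hX hg
  exact br7 h7 (fun u hu => hX _ (SG.semi_mulE u) (SG.mulE_mem_SLV.2 hu)) (t2 h7 hS hX hg)

end Cfsg.Agent.S7
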