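import Cfsg.Agent.Sg.Main2

set_option autoImplicit false
open Module Submodule

namespace Cfsg.Agent.S7

open Sg

section
variable {F V V' G : Type*} [Field F] [Fintype F] [AddCommGroup V] [Module F V] [Module.Finite F V]
  [AddCommGroup V'] [Module F V'] [Module.Finite F V'] [Group G] [Finite G]
  {ρ : Representation F G V} {ρ' : Representation F G V'} {B : V →ₗ[F] V' →ₗ[F] F}
  {K : Type*} [Field K] [Fintype K] [Algebra F K]

omit [Finite G] in
open Poly in
theorem poly7 (e : V ≃ₗ[F] K) (h13 : 7 ≤ finrank F K) (hS : Sing ρ e)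
    {c : ℕ} {W : V → V → Submodule F V} (hW : WS ρ c W) : finrank F V ≤ 3 * c := by
  classical
  let W' : K → K → Submodule F K := fun a b =>
    if Ind2 F (e.symm a) (e.symm b) then (W (e.symm a) (e.symm b)).map (e : V →ₗ[F] K) else ⊤
  have hm : ∀ a b x, x ∈ W' a b ↔ Ph F W (e.symm a) (e.symm b) (e.symm x) := fun a b x => by
    simp only [W', Ph]
    split_ifs with k
    · rw [Submodule.mem_map_equiv]; simp [k]
    · simp [k]
  obtain ⟨b, hb⟩ : ∃ b : K, b ∉ span F {(1 : K)} := by
    by_contra hc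
    push Not at hc
    have := finrank_span_singleton (K := F) (one_ne_zero (α := K))
    rw [Submodule.eq_top_iff'.2 hc, finrank_top] at this
    omega
  rw [e.finrank_eq]
  refine SG.deg W' (fun a b x => ?_) (fun a b x => ?_) (fun a b => ?_)
    (Units.map (Algebra.norm F : K →* F)).ker ?_ (fun s hs a b x => ?_) (a := 1) (b := b)
    fun s => ?_
  · rw [hm, hm]
    exact ⟨fun k => ph12 hW (ph23 hW (ph12 hW k)), fun k => ph12 hW (ph23 hW (ph12 hW k))⟩
  · rw [hm, hm]
    exact ⟨ph23 hW, ph23 hW⟩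
  · by_cases k : Ind2 F (e.symm a) (e.symm b)
    · rw [show W' a b = _ from if_pos k, LinearEquiv.finrank_map_eq, hW.rank _ _ k, e.finrank_eq]
    · rw [show W' a b = _ from if_neg k]; simp
  · rw [Subgroup.index_ker]
    have := Subgroup.card_le_card_group (Units.map (Algebra.norm F : K →* F)).range
    rw [Nat.card_units] at this
    have h1 : 0 < Nat.card F := Nat.card_pos
    omega
  · obtain ⟨g, hg⟩ := hS s (by
      rw [MonoidHom.mem_ker, ← Units.val_inj] at hs; exact hs)
    have k : ∀ v : K, e.symm (s * v) = ρ g (e.symm v) := fun v => by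
      rw [LinearEquiv.symm_apply_eq, hg]; simp
    rw [hm, hm, k, k, k]
    exact phg hW g
  · have k : Ind2 F (e.symm (s * 1)) (e.symm (s * b)) :=
      ind_map (e.symm : K →ₗ[F] V) e.symm.injective (ind_map (LinearMap.mulLeft F (s : K))
        (mul_right_injective₀ s.ne_zero) ⟨one_ne_zero, hb⟩)
    intro h
    have h1 := hW.rank _ _ k
    have h2 := hW.c_pos
    simp only [W', if_pos k] at h
    have h3 := congrArg (fun U : Submodule F K => finrank F U) h
    simp only [LinearEquiv.finrank_map_eq, finrank_top] at h3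
    rw [e.finrank_eq] at h1
    omega


theorem main7 (h : Ctx ρ ρ' B) (hi : Function.Injective ρ) (e : V ≃ₗ[F] K) (h7 : finrank F K = 7)
    (hS : Sing ρ e) (h2 : T2 ρ) : CC ρ := by
  have n1 : finrank F V = 7 := e.finrank_eq.trans h7
  obtain ⟨-, h3⟩ := af h h2 (by omega)
  obtain ⟨c, W, T, hW, -⟩ := wt h h2 h3 (pt h h3 (by omega)) (by omega)
  have b := poly7 e h7.ge hS hW
  have hs : Spread F W := by
    rcases tri hW (by omega) (by omega) with s | ⟨j, hj, hn⟩
    · exact s
    · omega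
  have hc : 4 ≤ c ∧ c ≤ 5 := by
    have : Finite V := Module.finite_of_finite F
    let _ : Fintype V := Fintype.ofFinite _
    have : Nontrivial V := Module.nontrivial_of_finrank_pos (R := F) (by omega)
    obtain ⟨x, hx⟩ := exists_ne (0 : V)
    obtain ⟨y, -, hy⟩ := IIa.ex_not (A := span F {x}) (A' := ⊤)
      (by rw [finrank_span_singleton hx, finrank_top]; omega)
    have r := hW.rank x y ⟨hx, hy⟩
    have l : finrank F (span F {x}) < finrank F (W x y) := finrank_lt_finrank_of_lt (lt_of_le_of_ne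
      ((span_singleton_le_iff_mem _ _).2 (hW.left x y ⟨hx, hy⟩)) fun he => hy (he ▸ hW.right x y ⟨hx, hy⟩))
    rw [finrank_span_singleton hx] at l
    rcases st hW hs (by omega) with e | e <;> omega
  obtain ⟨r, hr, hq⟩ := SG.zsig (q := Fintype.card F) (n := c) Fintype.one_lt_card (by omega) (by omega)
  have : Finite V := Module.finite_of_finite F
  let _ : Fintype V := Fintype.ofFinite _
  have : Nontrivial V := Module.nontrivial_of_finrank_pos (R := F) (by omega)
  obtain ⟨x, hx⟩ := exists_ne (0 : V)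
  obtain ⟨y, -, hy⟩ := IIa.ex_not (A := span F {x}) (A' := ⊤)
    (by rw [finrank_span_singleton hx, finrank_top]; omega)
  obtain ⟨C, z, hz⟩ := fr hi h.sc hW (by omega) (by omega) hr hq ⟨hx, hy⟩
  exact sp h hi h2 h3 hW hs (by rw [n1]; decide) (by omega) hr hq ⟨hx, hy⟩ hz

end

open Br Cfsg.Agent.H7 in
theorem br7 {F K : Type*} [Field F] [Fintype F] [Field K] [Finite K]
    [Algebra F K] (h7 : finrank F K = 7) {X : Subgroup (K ≃ₗ[F] K)}
    (hC : ∀ u ∈ SG.C1 F K, SG.mulE F K u ∈ X)
    (ht : ∀ u w u' w' : K, u ≠ 0 → w ∉ F ∙ u → u' ≠ 0 → w' ∉ F ∙ u' →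
      ∃ g ∈ X, ∃ a b : F, g u = a • u' ∧ g w = b • w') : SLV F K ≤ X := by
  classical
  have := Fintype.ofFinite K
  have : Finite (K ≃ₗ[F] K) := Finite.of_injective _ DFunLike.coe_injective
  let ρ : Representation F (YY X) K :=
    LinearEquiv.automorphismGroup.toLinearMapMonoidHom.comp (YY X).subtype
  have hρ : ∀ (g : YY X) v, ρ g v = g.1 v := fun _ _ => rfl
  have hi : Function.Injective ρ := fun g h e =>
    Subtype.ext (LinearEquiv.ext fun v => by rw [← hρ, ← hρ, e])
  have hS : ∀ s : K, Algebra.norm F s = 1 → ∃ g : YY X, ∀ v, g.1 v = s * v := fun s hs => by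
    have s0 : s ≠ 0 := by
      rintro rfl
      rw [Algebra.norm_zero] at hs
      exact zero_ne_one hs
    exact ⟨⟨_, le_YY (hC (Units.mk0 s s0) (SG.mem_C1.2 hs))⟩, fun _ => rfl⟩
  obtain ⟨g, a, x, f, hx, hf, h⟩ := main7 (ρ := ρ) (ρ' := ρ.dual) (B := Dual.eval F K)
    ⟨inferInstance, fun g x ξ => congrArg ξ (g.1.symm_apply_apply x), fun a ha => by
      obtain ⟨g, hg, h⟩ := sc_YY (X := X) ha
      exact ⟨⟨g, hg⟩, h⟩, fun a ha => by
      obtain ⟨g, hg, h⟩ := sc_YY (X := X) ha
      refine ⟨⟨g, hg⟩⁻¹, fun ξ => LinearMap.ext fun v => ?_⟩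
      change ξ (g v) = _
      rw [h, map_smul]
      rfl⟩ hi
    (LinearEquiv.refl F K) h7 (fun s hs => hS s hs) (fun x y x' y' h h' => by
      obtain ⟨g, hg, a, b, h1, h2⟩ := ht x y x' y' h.1 h.2 h'.1 h'.2
      have ha : a ≠ 0 := by
        rintro rfl
        exact h.1 (g.map_eq_zero_iff.1 (by rw [h1, zero_smul]))
      obtain ⟨s, hs, es⟩ := sc_YY (X := X) (inv_ne_zero ha)
      refine ⟨⟨s, hs⟩ * ⟨g, le_YY hg⟩, ?_, ?_⟩
      · change s (g x) = _
        rw [es, h1, smul_smul, inv_mul_cancel₀ ha, one_smul]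
      · change s (g y) ∈ _
        rw [es, h2]
        exact smul_mem _ _ (smul_mem _ _ (mem_span_singleton_self _)))
  exact sl_of (by omega) ht g.2 hx hf h


end Cfsg.Agent.S7
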